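import Mathlib
import Cfsg.Prelude.Def_OddOrderChar
import Cfsg.Prelude.Def_OddOrderLocal
import Cfsg.Agent.Lib.Helper3.DadeConj
import Cfsg.Agent.Lib.Helper25.Dade
import Cfsg.Agent.Lib.Helper25.PF43
import Cfsg.Agent.Lib.Helper39.Ind
import Cfsg.Agent.Lib.Helper69.Wielandt

/-!
# Elementary facts on the Dade map (helper4)

* `dadeIsometry_add`, `dadeIsometry_zsmul`: the Dade map is additive and commutes with integer
  scalars (pointwise, no hypothesis);
* `dade_eq_ind`: when all the supports `H a` are trivial and `A` lies in a TI-subset with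
  normaliser `L`, the Dade map coincides with induction on class functions vanishing off `A`.
-/

set_option autoImplicit false

namespace Cfsg.Agent.Lib.Helper4.PF12

open Cfsg

universe u

section dade

variable {G : Type u} [Group G] {A : Set G} {L : Subgroup G} {H : G → Subgroup G}

theorem dadeIsometry_add (α β : L → ℂ) :
    dadeIsometry A L H (α + β) = dadeIsometry A L H α + dadeIsometry A L H β := by
  funext g
  unfold dadeIsometry
  by_cases h : ∃ a : ↥L, (a : G) ∈ A ∧ ∃ x : G, ∃ u ∈ H (a : G), x * g * x⁻¹ = (a : G) * u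
  · simp only [dif_pos h, Pi.add_apply]
  · simp only [dif_neg h, Pi.add_apply, add_zero]

theorem dadeIsometry_zsmul (n : ℤ) (α : L → ℂ) :
    dadeIsometry A L H (n • α) = n • dadeIsometry A L H α := by
  funext g
  unfold dadeIsometry
  by_cases h : ∃ a : ↥L, (a : G) ∈ A ∧ ∃ x : G, ∃ u ∈ H (a : G), x * g * x⁻¹ = (a : G) * u
  · simp only [dif_pos h, Pi.smul_apply]
  · simp only [dif_neg h, Pi.smul_apply, smul_zero]

/-- With trivial supports, inside a TI-subset `T` with normaliser `L`, the Dade map is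
induction (on class functions of `L` vanishing off `A`). -/
theorem dade_eq_ind [Fintype G] (hD : DadeHypothesis A L H)
    (hH : ∀ a ∈ A, H a = ⊥) (T : Set G) (hAT : A ⊆ T)
    (hN : Subgroup.normalizer T = L)
    (hTI : ∀ g : G, g ∉ L → ∀ t ∈ T, g * t * g⁻¹ ∈ T → t = 1)
    (α : L → ℂ) (hα : IsClassFunction L α) (hαA : ∀ x : L, (x : G) ∉ A → α x = 0) :
    dadeIsometry A L H α = indFun L α := by
  funext g
  by_cases h : ∃ a : ↥L, (a : G) ∈ A ∧ ∃ x : G, ∃ u ∈ H (a : G), x * g * x⁻¹ = (a : G) * u
  · obtain ⟨a, ha, x, u, hu, hx⟩ := h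
    rw [Cfsg.Agent.Lib.Helper25.dadeIsometry_apply hD α hα g a ha u x hu hx]
    have hu1 : u = 1 := by
      rw [hH _ ha, Subgroup.mem_bot] at hu
      exact hu
    rw [hu1, mul_one] at hx
    have h1 : indFun L α g = indFun L α (a : G) := by
      have h2 := Cfsg.Agent.Lib.Helper39.indFun_conj L α (a : G) x
      rw [← h2, ← hx]
      congr 1
      group
    rw [h1]
    have ha1 : a ≠ 1 := by
      intro h3
      apply hD.one_not_mem
      rw [h3] at ha
      exact ha
    exact (Cfsg.Agent.Lib.Helper25.indFun_TI_apply' T L hN hTI α hα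
      (fun x hx => hαA x (fun h3 => hx (hAT h3))) a (hAT ha) ha1).symm
  · rw [Cfsg.Agent.Lib.Helper25.dadeIsometry_eq_zero α g h]
    symm
    apply Cfsg.Agent.Lib.Helper69.indFun_eq_zero_of_vanish
    intro c hc
    apply hαA
    intro hmem
    exact h ⟨⟨c⁻¹ * g * c, hc⟩, hmem, c⁻¹, 1, Subgroup.one_mem _, by simp⟩

end dade

end Cfsg.Agent.Lib.Helper4.PF12
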