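import Mathlib
import Cfsg.Prelude.Def_OddOrderChar
import Cfsg.Agent.Lib.Helper4.PF12.DadeInd
import Cfsg.Agent.Lib.Helper4.Exceptional
import Cfsg.Agent.Lib.Helper3.DadeConj
import Cfsg.Agent.Lib.Helper3.ExcPair
import Cfsg.Agent.S1498
import Cfsg.Agent.S1500

/-!
# PF (12.x), the side of the Frobenius witness `N` (helper4): coset averages

`cosetAvg R χ a` is the average of `χ` over the coset `a · R a`.  Under the Dade hypothesis
it is invariant under `L`-conjugation of `a ∈ A`, linear in `χ`, and the average of a Dade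
image `τ α` is `α a`.
-/

set_option autoImplicit false

namespace Cfsg.Agent.Lib.Helper4.PF12

open Cfsg Cfsg.Agent.Lib.Helper80 Cfsg.Agent.Lib.Helper4
open scoped ComplexConjugate

universe u

section avg

variable {G : Type u} [Group G]

/-- The average of `χ` over the coset `a · R a`. -/
noncomputable def cosetAvg (R : G → Subgroup G) (χ : G → ℂ) (a : G) : ℂ :=
  (Nat.card (R a) : ℂ)⁻¹ * ∑ᶠ u ∈ (R a : Set G), χ (a * u)

open Classical in
theorem cosetAvg_eq_sum [Fintype G] (R : G → Subgroup G) (χ : G → ℂ) (a : G) :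
    cosetAvg R χ a = (Nat.card (R a) : ℂ)⁻¹ * ∑ u : G, if u ∈ R a then χ (a * u) else 0 := by
  unfold cosetAvg
  congr 1
  rw [finsum_mem_def, finsum_eq_sum_of_fintype]
  apply Finset.sum_congr rfl
  intro u _
  simp [Set.indicator_apply]

theorem cosetAvg_conj [Finite G] {A : Set G} {L : Subgroup G} {R : G → Subgroup G}
    (hD : DadeHypothesis A L R) {χ : G → ℂ} (hχ : IsClassFunction G χ) {a : G} (ha : a ∈ A)
    {l : G} (hl : l ∈ L) : cosetAvg R χ (l * a * l⁻¹) = cosetAvg R χ a := by
  unfold cosetAvg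
  rw [Cfsg.Agent.Lib.Helper25.dade_card_conj hD ha hl]
  congr 1
  rw [Cfsg.Agent.S1498.result A L R hD a ha l hl, Subgroup.coe_map]
  have hinj : Set.InjOn (⇑(MulEquiv.toMonoidHom (MulAut.conj l))) (R a : Set G) :=
    (MulAut.conj l).injective.injOn
  rw [finsum_mem_image hinj]
  apply finsum_mem_congr rfl
  intro v _
  have : l * a * l⁻¹ * (MulAut.conj l).toMonoidHom v = l * (a * v) * l⁻¹ := by
    simp [MulAut.conj_apply]
  rw [this, hχ]

theorem cosetAvg_sub [Fintype G] (R : G → Subgroup G) (χ ξ : G → ℂ) (a : G) :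
    cosetAvg R (χ - ξ) a = cosetAvg R χ a - cosetAvg R ξ a := by
  classical
  rw [cosetAvg_eq_sum, cosetAvg_eq_sum, cosetAvg_eq_sum, ← mul_sub, ← Finset.sum_sub_distrib]
  congr 1
  apply Finset.sum_congr rfl
  intro u _
  by_cases hu : u ∈ R a
  · simp [hu]
  · simp [hu]

theorem cosetAvg_smul [Fintype G] (R : G → Subgroup G) (c : ℂ) (χ : G → ℂ) (a : G) :
    cosetAvg R (c • χ) a = c * cosetAvg R χ a := by
  classical
  rw [cosetAvg_eq_sum, cosetAvg_eq_sum, mul_left_comm]
  congr 1
  rw [Finset.mul_sum]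
  apply Finset.sum_congr rfl
  intro u _
  by_cases hu : u ∈ R a
  · simp [hu]
  · simp [hu]

/-- The average of a Dade image over `a · R a` is the value at `a`. -/
theorem cosetAvg_dade [Fintype G] {A : Set G} {L : Subgroup G} {R : G → Subgroup G}
    (hD : DadeHypothesis A L R) (α : L → ℂ) (hα : IsClassFunction L α) (a : L)
    (ha : (a : G) ∈ A) : cosetAvg R (dadeIsometry A L R α) (a : G) = α a := by
  classical
  rw [cosetAvg_eq_sum]
  have h1 : ∀ u : G, (if u ∈ R (a : G) then dadeIsometry A L R α ((a : G) * u) else 0)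
      = if u ∈ R (a : G) then α a else 0 := by
    intro u
    by_cases hu : u ∈ R (a : G)
    · rw [if_pos hu, if_pos hu]
      exact Cfsg.Agent.Lib.Helper25.dadeIsometry_apply hD α hα _ a ha u 1 hu (by simp)
    · rw [if_neg hu, if_neg hu]
  simp_rw [h1]
  rw [← Finset.sum_filter, Finset.sum_const, Cfsg.Agent.Lib.Helper3.card_filter_mem_subgroup,
    nsmul_eq_mul]
  have hne : (Nat.card (R (a : G)) : ℂ) ≠ 0 := by
    exact_mod_cast (Nat.card_pos (α := R (a : G))).ne'
  field_simp

end avg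

end Cfsg.Agent.Lib.Helper4.PF12
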