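import Mathlib
import Cfsg.Agent.Lib.Helper4.PF12.NSideA

/-!
# PF (12.x), the side of the Frobenius witness `N` (helper4): the constant `γ`

`N ≤ G`, `K` a normal subgroup of `N`, `A = K \ {1}` with the Dade hypothesis for `(A, N, R)`,
`S` the set of functions induced from the non-principal irreducible characters of `K`, all
irreducible, `τ₁` a linear isometry on `ℤ[S]` extending the Dade map.  Then there is a
constant `c` such that for every `ζ ∈ S` and `k ∈ K \ {1}` the average of `τ₁ ζ` over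
`k · R k` is `ζ k + c ζ(1)`.
-/

set_option autoImplicit false

namespace Cfsg.Agent.Lib.Helper4.PF12

open Cfsg Cfsg.Agent.Lib.Helper80 Cfsg.Agent.Lib.Helper4
open scoped ComplexConjugate

universe u

/-- `τ₁` of the difference `ξ(1) χ - χ(1) ξ`. -/
theorem tau1_alpha {X : Type u} [Group X] [Fintype X] {Y : Type u} [Group Y] [Fintype Y]
    (S : Set (X → ℂ)) (star : (X → ℂ) → (Y → ℂ)) (hstar : IsLinearIsometryOn (zspan S) star)
    {χ ξ : X → ℂ} (hχ : χ ∈ S) (hξ : ξ ∈ S) (hχc : IsCharacter X χ) (hξc : IsCharacter X ξ) :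
    star (alphaFun χ ξ) = (ξ 1) • star χ - (χ 1) • star ξ := by
  have hχz : χ ∈ zspan S := Submodule.subset_span hχ
  have hξz : ξ ∈ zspan S := Submodule.subset_span hξ
  have h1 : ((charDegree ξ : ℕ) : ℤ) • χ ∈ zspan S :=
    Submodule.smul_mem (Submodule.span ℤ S) _ hχz
  have h2 : (-((charDegree χ : ℕ) : ℤ)) • ξ ∈ zspan S :=
    Submodule.smul_mem (Submodule.span ℤ S) _ hξz
  rw [alphaFun_eq_zsmul hχc hξc, hstar.1 _ h1 _ h2, hstar.2.1 χ hχz, hstar.2.1 ξ hξz,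
    char_one_eq_charDegree hχc, char_one_eq_charDegree hξc]
  funext g
  show ((charDegree ξ : ℕ) : ℤ) • star χ g + (-((charDegree χ : ℕ) : ℤ)) • star ξ g
    = (charDegree ξ : ℂ) * star χ g - (charDegree χ : ℂ) * star ξ g
  rw [zsmul_eq_mul, zsmul_eq_mul]
  push_cast
  ring

section const

variable {G : Type u} [Group G] [Fintype G] {N : Subgroup G} [Fintype N]

omit [Fintype G] in
/-- An irreducible character of `N` not constant on `K` is induced from a non-principal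
irreducible character of `K`, provided all such induced functions are irreducible. -/
theorem rel_mem_induced (K : Subgroup N) [K.Normal]
    (hirr : ∀ χ ∈ inducedIrrAbove K ⊥, IsIrrCharacter N χ)
    (χ : IrrCharacter N) (hχ : ¬ ∀ x ∈ K, (χ : N → ℂ) x = (χ : N → ℂ) 1) :
    (χ : N → ℂ) ∈ inducedIrrAbove K ⊥ := by
  classical
  have := Fintype.ofFinite (IrrCharacter K)
  have hχc : IsCharacter N (χ : N → ℂ) := isCharacter_of_isIrrCharacter χ.2
  have hres : IsCharacter K (fun k : K => (χ : N → ℂ) k) := isCharacter_restrict K hχc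
  by_contra hcon
  have hzero : ∀ θ : IrrCharacter K, (θ : K → ℂ) ≠ (fun _ => 1) →
      classInner (fun k : K => (χ : N → ℂ) k) (θ : K → ℂ) = 0 := by
    intro θ hθ
    by_contra hne
    apply hcon
    have hmem : indFun K (θ : K → ℂ) ∈ inducedIrrAbove K ⊥ := by
      refine ⟨θ, θ.2, hθ, ?_, rfl⟩
      intro a ha
      rw [Subgroup.mem_bot] at ha
      have : a = 1 := Subtype.ext ha
      rw [this]
    have hind := hirr _ hmem
    have hfr := frobenius_reciprocity K (θ : K → ℂ) (χ : N → ℂ)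
      (isClassFunction_of_isCharacter hχc)
    have h2 : classInner (indFun K (θ : K → ℂ)) (χ : N → ℂ) ≠ 0 := by
      rw [hfr, ← classInner_conj_symm]
      intro h
      apply hne
      have := congrArg conj h
      rwa [Complex.conj_conj, map_zero] at this
    have h3 := classInner_irr_fun hind χ.2
    by_cases heq : indFun K (θ : K → ℂ) = (χ : N → ℂ)
    · rw [← heq]; exact hmem
    · rw [if_neg heq] at h3; exact absurd h3 h2
  apply hχ
  have key : ∀ k : K, (χ : N → ℂ) k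
      = classInner (fun k : K => (χ : N → ℂ) k) (fun _ => 1) := by
    intro k
    have e := classFun_expansion_apply (fun k : K => (χ : N → ℂ) k)
      (isClassFunction_of_isCharacter hres) k
    rw [Finset.sum_eq_single (⟨fun _ => 1, isIrrCharacter_one⟩ : IrrCharacter K)] at e
    · simpa using e
    · intro θ _ hθ
      rw [hzero θ (fun h => hθ (Subtype.ext h)), zero_mul]
    · intro h; exact absurd (Finset.mem_univ _) h
  intro x hx
  have h1 := key ⟨x, hx⟩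
  have h2 := key 1
  simp only [Subgroup.coe_one] at h1 h2
  rw [h1, h2]

/-- Members of `inducedIrrAbove K ⊥` vanish off `K`. -/
theorem induced_vanish (K : Subgroup N) [K.Normal] {χ : N → ℂ} (hχ : χ ∈ inducedIrrAbove K ⊥)
    {x : N} (hx : x ∉ K) : χ x = 0 := by
  obtain ⟨θ, -, -, -, rfl⟩ := hχ
  apply Cfsg.Agent.Lib.Helper69.indFun_eq_zero_of_vanish
  intro c hc
  exfalso
  apply hx
  have := Subgroup.Normal.conj_mem (inferInstance : K.Normal) _ hc c
  simpa [mul_assoc] using this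

/-- The constant of the exceptional characters, Dade version. -/
theorem nside_const (K : Subgroup N) [K.Normal] (A : Set G) (R : G → Subgroup G)
    (hD : DadeHypothesis A N R) (hA : ∀ x : N, (x : G) ∈ A ↔ x ∈ K ∧ x ≠ 1)
    (hirr : ∀ χ ∈ inducedIrrAbove K ⊥, IsIrrCharacter N χ)
    (τ₁ : (N → ℂ) → (G → ℂ)) (hτ₁ : IsLinearIsometryOn (zspan (inducedIrrAbove K ⊥)) τ₁)
    (hext : ∀ α ∈ zspanOn (inducedIrrAbove K ⊥) ({1}ᶜ : Set N), τ₁ α = dadeIsometry A N R α) :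
    ∃ c : ℂ, ∀ ζ ∈ inducedIrrAbove K ⊥, ∀ k : N, k ∈ K → k ≠ 1 →
      cosetAvg R (τ₁ ζ) (k : G) = ζ k + c * ζ 1 := by
  classical
  have := Fintype.ofFinite (IrrCharacter N)
  obtain ⟨S, hS⟩ : ∃ S : Set (N → ℂ), S = inducedIrrAbove K ⊥ := ⟨_, rfl⟩
  rw [← hS] at hirr hτ₁ hext ⊢
  by_cases hne : S.Nonempty
  swap
  · exact ⟨0, fun χ hχ => absurd ⟨χ, hχ⟩ hne⟩
  obtain ⟨χ₁, hχ₁⟩ := hne
  by_cases hk₀ : ∃ k₀ : N, k₀ ∈ K ∧ k₀ ≠ 1
  swap
  · exact ⟨0, fun ζ _ k hk hk1 => absurd ⟨k, hk, hk1⟩ hk₀⟩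
  obtain ⟨k₀, hk₀K, hk₀1⟩ := hk₀
  have hchar : ∀ χ ∈ S, IsCharacter N χ := fun χ hχ => isCharacter_of_isIrrCharacter (hirr χ hχ)
  have hzs : ∀ χ ∈ S, χ ∈ zspan S := fun χ hχ => Submodule.subset_span hχ
  have hvan : ∀ χ ∈ S, ∀ x : N, x ∉ K → χ x = 0 := by
    intro χ hχ x hx
    rw [hS] at hχ
    exact induced_vanish K hχ hx
  have hαA : ∀ χ ∈ S, ∀ ξ ∈ S, ∀ x : N, (x : G) ∉ A → alphaFun χ ξ x = 0 := by
    intro χ hχ ξ hξ x hx
    by_cases hxK : x ∈ K
    · have hx1 : x = 1 := by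
        by_contra h
        exact hx ((hA x).2 ⟨hxK, h⟩)
      rw [hx1, alphaFun_one]
    · rw [alphaFun_apply, hvan χ hχ x hxK, hvan ξ hξ x hxK]; ring
  have hcf₁ : IsClassFunction G (τ₁ χ₁) :=
    isClassFunction_of_gen (hτ₁.2.2.2 χ₁ (hzs χ₁ hχ₁))
  have hE1 : ∀ χ ∈ S, ∀ ξ ∈ S, ∀ k : N, (k : G) ∈ A →
      ξ 1 * cosetAvg R (τ₁ χ) (k : G) - χ 1 * cosetAvg R (τ₁ ξ) (k : G)
        = ξ 1 * χ k - χ 1 * ξ k := by
    intro χ hχ ξ hξ k hk
    have h1 := tau1_alpha S τ₁ hτ₁ hχ hξ (hchar χ hχ) (hchar ξ hξ)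
    rw [hext _ (alphaFun_mem_zspanOn S hχ hξ (hchar χ hχ) (hchar ξ hξ))] at h1
    have h2 := cosetAvg_dade hD (alphaFun χ ξ)
      (isClassFunction_alphaFun (hchar χ hχ) (hchar ξ hξ)) k hk
    rw [h1, cosetAvg_sub, cosetAvg_smul, cosetAvg_smul, alphaFun_apply] at h2
    exact h2
  obtain ⟨δ, hδ⟩ : ∃ δ : N → ℂ, δ = fun x : N =>
      if (x : G) ∈ A then cosetAvg R (τ₁ χ₁) (x : G) - χ₁ x else 0 := ⟨_, rfl⟩
  have hδcf : IsClassFunction N δ := by
    intro g x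
    rw [hδ]
    simp only
    by_cases hg : (g : G) ∈ A
    · have hg' : ((x * g * x⁻¹ : N) : G) ∈ A := by
        have := hD.conj_mem (x : G) x.2 (g : G) hg
        simpa using this
      rw [if_pos hg, if_pos hg']
      have e1 : ((x * g * x⁻¹ : N) : G) = (x : G) * (g : G) * (x : G)⁻¹ := by simp
      rw [e1, cosetAvg_conj hD hcf₁ hg x.2, isClassFunction_of_isCharacter (hchar χ₁ hχ₁) g x]
    · have hg' : ((x * g * x⁻¹ : N) : G) ∉ A := by
        intro h
        apply hg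
        have := hD.conj_mem ((x⁻¹ : N) : G) (x⁻¹).2 _ h
        simpa [mul_assoc] using this
      rw [if_neg hg, if_neg hg']
  have hconst : ∀ k : N, k ∈ K → k ≠ 1 → δ k = δ k₀ := by
    intro k hk hk1
    apply const_on_K K δ hδcf _ hk hk1 hk₀K hk₀1
    intro χ ξ hχ hξ
    have hχS : (χ : N → ℂ) ∈ S := by rw [hS]; exact rel_mem_induced K (hS ▸ hirr) χ hχ
    have hξS : (ξ : N → ℂ) ∈ S := by rw [hS]; exact rel_mem_induced K (hS ▸ hirr) ξ hξ
    change classInner (alphaFun (χ : N → ℂ) (ξ : N → ℂ)) δ = 0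
    have hαcf := isClassFunction_alphaFun (hchar _ hχS) (hchar _ hξS)
    have hαon := alphaFun_mem_zspanOn S hχS hξS (hchar _ hχS) (hchar _ hξS)
    have e1 : classInner (alphaFun (χ : N → ℂ) (ξ : N → ℂ)) δ
        = classInner (alphaFun (χ : N → ℂ) (ξ : N → ℂ))
            (fun x : N => cosetAvg R (τ₁ χ₁) (x : G))
          - classInner (alphaFun (χ : N → ℂ) (ξ : N → ℂ)) χ₁ := by
      rw [← Cfsg.Agent.Lib.Helper26.classInner_sub_right]
      unfold classInner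
      congr 1
      apply Finset.sum_congr rfl
      intro x _
      by_cases hx : (x : G) ∈ A
      · rw [hδ]
        simp only [if_pos hx, Pi.sub_apply]
      · rw [hαA _ hχS _ hξS x hx, zero_mul, zero_mul]
    have h1500 := (Cfsg.Agent.S1500.result A N R hD _ hαcf (hαA _ hχS _ hξS)).2 (τ₁ χ₁)
      (fun x : N => cosetAvg R (τ₁ χ₁) (x : G)) hcf₁ (fun a _ => rfl)
    have hiso := hτ₁.2.2.1 _ hαon.1 χ₁ (hzs χ₁ hχ₁)
    rw [e1, ← h1500, ← hext _ hαon, hiso, sub_self]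
  obtain ⟨C₁, hC₁⟩ : ∃ C₁ : ℂ, C₁ = cosetAvg R (τ₁ χ₁) (k₀ : G) - χ₁ k₀ := ⟨_, rfl⟩
  have hδval : ∀ k : N, k ∈ K → k ≠ 1 → δ k = cosetAvg R (τ₁ χ₁) (k : G) - χ₁ k := by
    intro k hk hk1
    rw [hδ]
    simp only [if_pos ((hA k).2 ⟨hk, hk1⟩)]
  have hconst' : ∀ k : N, k ∈ K → k ≠ 1 → cosetAvg R (τ₁ χ₁) (k : G) - χ₁ k = C₁ := by
    intro k hk hk1
    rw [← hδval k hk hk1, hconst k hk hk1, hδval k₀ hk₀K hk₀1, hC₁]
  have hd₁ : χ₁ 1 ≠ 0 := char_one_ne_zero (hirr χ₁ hχ₁)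
  refine ⟨C₁ / χ₁ 1, ?_⟩
  intro ζ hζ k hk hk1
  have h1 := hE1 ζ hζ χ₁ hχ₁ k ((hA k).2 ⟨hk, hk1⟩)
  have h2 := hconst' k hk hk1
  field_simp
  linear_combination h1 + (ζ 1) * h2

end const

end Cfsg.Agent.Lib.Helper4.PF12
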