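import Mathlib
import Cfsg.Agent.Lib.Helper4.PF12.NSideB
import Cfsg.Agent.Lib.Helper25.IndAbove
import Cfsg.Agent.Lib.Helper25.CohSys
import Cfsg.Agent.S1518

/-!
# PF (12.x), the side of the Frobenius witness `N` (helper4): conjugation and Bessel

* `nside_conj`: `τ₁ (conj ζ) = conj (τ₁ ζ)` for non-real `ζ ∈ S`;
* `nside_bessel`: a generalized character `X` of `G` such that `X` and `conj X` are orthogonal
  to the Dade images of all `ξ(1) χ - χ(1) ξ` (`χ, ξ ∈ S`) and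
  `‖X + conj X‖² · e < 4 (|K| - 1)` is orthogonal to every `τ₁ ζ`, `ζ ∈ S`.
-/

set_option autoImplicit false

namespace Cfsg.Agent.Lib.Helper4.PF12

open Cfsg Cfsg.Agent.Lib.Helper80 Cfsg.Agent.Lib.Helper4
open scoped ComplexConjugate

universe u

section conjsec

variable {G : Type u} [Group G] [Fintype G] {N : Subgroup G} [Fintype N]

omit [Fintype G] in
theorem conjFun_conjFun {X : Type*} (f : X → ℂ) : conjFun (conjFun f) = f := by
  funext x
  simp [conjFun]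

theorem classInner_conjFun_right (f g : G → ℂ) :
    classInner f (conjFun g) = conj (classInner (conjFun f) g) := by
  unfold classInner conjFun
  rw [map_mul, map_inv₀, Complex.conj_natCast, map_sum]
  congr 1
  apply Finset.sum_congr rfl
  intro x _
  simp

theorem nside_conj (K : Subgroup N) [K.Normal] (A : Set G) (R : G → Subgroup G)
    (hD : DadeHypothesis A N R) (hA : ∀ x : N, (x : G) ∈ A ↔ x ∈ K ∧ x ≠ 1)
    (hirr : ∀ χ ∈ inducedIrrAbove K ⊥, IsIrrCharacter N χ)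
    (τ₁ : (N → ℂ) → (G → ℂ)) (hτ₁ : IsLinearIsometryOn (zspan (inducedIrrAbove K ⊥)) τ₁)
    (hext : ∀ α ∈ zspanOn (inducedIrrAbove K ⊥) ({1}ᶜ : Set N), τ₁ α = dadeIsometry A N R α)
    {ζ : N → ℂ} (hζ : ζ ∈ inducedIrrAbove K ⊥) (hreal : conjFun ζ ≠ ζ) :
    τ₁ (conjFun ζ) = conjFun (τ₁ ζ) := by
  classical
  have := Fintype.ofFinite (IrrCharacter G)
  have hζ' : conjFun ζ ∈ inducedIrrAbove K ⊥ := Cfsg.Agent.Lib.Helper25.conj_mem_above K ⊥ hζ
  have hζi := hirr ζ hζ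
  have hζ'i := hirr _ hζ'
  have hz : ζ ∈ zspan (inducedIrrAbove K ⊥) := Submodule.subset_span hζ
  have hz' : conjFun ζ ∈ zspan (inducedIrrAbove K ⊥) := Submodule.subset_span hζ'
  have hz'' : (-1 : ℤ) • conjFun ζ ∈ zspan (inducedIrrAbove K ⊥) :=
    Submodule.smul_mem (Submodule.span ℤ _) _ hz'
  have hsub : ζ - conjFun ζ = ζ + (-1 : ℤ) • conjFun ζ := by
    funext x
    simp [sub_eq_add_neg]
  have hon : ζ - conjFun ζ ∈ zspanOn (inducedIrrAbove K ⊥) ({1}ᶜ : Set N) := by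
    refine ⟨?_, ?_⟩
    · rw [hsub]
      exact Submodule.add_mem _ hz hz''
    · intro x hx
      have hx1 : x = 1 := by
        by_contra h
        exact hx h
      rw [hx1]
      show ζ 1 - conj (ζ 1) = 0
      rw [char_one_eq_charDegree (isCharacter_of_isIrrCharacter hζi), Complex.conj_natCast,
        sub_self]
  have hsupp : ∀ x : N, x ≠ 1 → (x : G) ∉ A → ζ x = 0 := by
    intro x hx1 hxA
    apply induced_vanish K hζ
    intro hxK
    exact hxA ((hA x).2 ⟨hxK, hx1⟩)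
  obtain ⟨μ, hμ, hμeq⟩ := Cfsg.Agent.S1518.result A N R hD ζ hζi hsupp
  have hμ' : IsIrrCharacter G (conjFun μ) := isIrrCharacter_conj hμ
  obtain ⟨ψ, hψ⟩ : ∃ ψ : G → ℂ, ψ = τ₁ ζ := ⟨_, rfl⟩
  obtain ⟨ψ', hψ'⟩ : ∃ ψ' : G → ℂ, ψ' = τ₁ (conjFun ζ) := ⟨_, rfl⟩
  have hdiff : ψ - ψ' = μ - conjFun μ := by
    rw [← hμeq, ← hext _ hon, hsub, hτ₁.1 _ hz _ hz'', hτ₁.2.1 _ hz', hψ, hψ']
    funext g
    simp [sub_eq_add_neg]
  have hn1 : classInner ψ ψ = 1 := by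
    rw [hψ, hτ₁.2.2.1 _ hz _ hz, classInner_irr_fun hζi hζi, if_pos rfl]
  have hn2 : classInner ψ' ψ' = 1 := by
    rw [hψ', hτ₁.2.2.1 _ hz' _ hz', classInner_irr_fun hζ'i hζ'i, if_pos rfl]
  have hn12 : classInner ψ ψ' = 0 := by
    rw [hψ, hψ', hτ₁.2.2.1 _ hz _ hz', classInner_irr_fun hζi hζ'i, if_neg (Ne.symm hreal)]
  have hμne : conjFun μ ≠ μ := by
    intro h
    rw [h, sub_self] at hdiff
    have h1 : ψ = ψ' := sub_eq_zero.mp hdiff
    rw [← h1, hn1] at hn12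
    exact one_ne_zero hn12
  have hg1 := hτ₁.2.2.2 _ hz
  have hg2 := hτ₁.2.2.2 _ hz'
  rw [← hψ] at hg1
  rw [← hψ'] at hg2
  have e1 : classInner ψ μ - classInner ψ' μ = 1 := by
    rw [← Cfsg.Agent.Lib.Helper80.classInner_sub_left, hdiff,
      Cfsg.Agent.Lib.Helper80.classInner_sub_left, classInner_irr_fun hμ hμ, if_pos rfl,
      classInner_irr_fun hμ' hμ, if_neg hμne, sub_zero]
  have e2 : classInner ψ (conjFun μ) - classInner ψ' (conjFun μ) = -1 := by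
    rw [← Cfsg.Agent.Lib.Helper80.classInner_sub_left, hdiff,
      Cfsg.Agent.Lib.Helper80.classInner_sub_left, classInner_irr_fun hμ hμ',
      if_neg (Ne.symm hμne), classInner_irr_fun hμ' hμ', if_pos rfl, zero_sub]
  have hneg : ∀ f g : G → ℂ, classInner f g = - classInner (-f) g := by
    intro f g
    rw [Cfsg.Agent.Lib.Helper26.classInner_neg_left, neg_neg]
  rw [← hψ, ← hψ']
  rcases Cfsg.Agent.Lib.Helper26.irr_or_neg_of_norm_one hg1 hn1 with h1 | h1 <;>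
    rcases Cfsg.Agent.Lib.Helper26.irr_or_neg_of_norm_one hg2 hn2 with h2 | h2
  · rw [classInner_irr_fun h1 hμ, classInner_irr_fun h2 hμ] at e1
    rw [classInner_irr_fun h1 hμ', classInner_irr_fun h2 hμ'] at e2
    have a1 : ψ = μ := by
      by_contra h
      rw [if_neg h] at e1
      split_ifs at e1 <;> norm_num at e1
    have a2 : ψ' = conjFun μ := by
      by_contra h
      rw [if_neg h] at e2
      split_ifs at e2 <;> norm_num at e2
    rw [a2, a1]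
  · exfalso
    rw [classInner_irr_fun h1 hμ', hneg ψ', classInner_irr_fun h2 hμ'] at e2
    split_ifs at e2 <;> norm_num at e2
  · exfalso
    rw [hneg ψ, classInner_irr_fun h1 hμ, classInner_irr_fun h2 hμ] at e1
    split_ifs at e1 <;> norm_num at e1
  · rw [hneg ψ, hneg ψ', classInner_irr_fun h1 hμ, classInner_irr_fun h2 hμ] at e1
    rw [hneg ψ, hneg ψ', classInner_irr_fun h1 hμ', classInner_irr_fun h2 hμ'] at e2
    have a1 : -ψ' = μ := by
      by_contra h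
      rw [if_neg h] at e1
      split_ifs at e1 <;> norm_num at e1
    have a2 : -ψ = conjFun μ := by
      by_contra h
      rw [if_neg h] at e2
      split_ifs at e2 <;> norm_num at e2
    have b1 : ψ' = -μ := by rw [← a1, neg_neg]
    have b2 : ψ = -conjFun μ := by rw [← a2, neg_neg]
    rw [b1, b2]
    funext g
    simp [conjFun]

end conjsec

section bessel

variable {G : Type u} [Group G] [Fintype G] {N : Subgroup G} [Fintype N]

/-- The Bessel argument on the whole coherent family. -/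
theorem nside_bessel (K : Subgroup N) [K.Normal] (A : Set G) (R : G → Subgroup G)
    (hD : DadeHypothesis A N R) (hA : ∀ x : N, (x : G) ∈ A ↔ x ∈ K ∧ x ≠ 1)
    (hirr : ∀ χ ∈ inducedIrrAbove K ⊥, IsIrrCharacter N χ)
    (hreal : ∀ χ ∈ inducedIrrAbove K ⊥, conjFun χ ≠ χ)
    (τ₁ : (N → ℂ) → (G → ℂ)) (hτ₁ : IsLinearIsometryOn (zspan (inducedIrrAbove K ⊥)) τ₁)
    (hext : ∀ α ∈ zspanOn (inducedIrrAbove K ⊥) ({1}ᶜ : Set N), τ₁ α = dadeIsometry A N R α)
    (ζ₀ : N → ℂ) (hζ₀ : ζ₀ ∈ inducedIrrAbove K ⊥) (hdeg : ζ₀ 1 = (K.index : ℂ))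
    (X : G → ℂ) (hX : IsGeneralizedCharacter G X)
    (hX1 : ∀ χ ∈ inducedIrrAbove K ⊥, ∀ ξ ∈ inducedIrrAbove K ⊥,
      classInner (dadeIsometry A N R (alphaFun χ ξ)) X = 0)
    (hnorm : (classInner (X + conjFun X) (X + conjFun X)).re * (K.index : ℝ)
      < 4 * ((Nat.card K : ℝ) - 1)) :
    ∀ ζ ∈ inducedIrrAbove K ⊥, classInner (τ₁ ζ) X = 0 := by
  classical
  have := Fintype.ofFinite (IrrCharacter N)
  have := Fintype.ofFinite (IrrCharacter G)
  have hchar : ∀ χ ∈ inducedIrrAbove K ⊥, IsCharacter N χ :=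
    fun χ hχ => isCharacter_of_isIrrCharacter (hirr χ hχ)
  have hzs : ∀ χ ∈ inducedIrrAbove K ⊥, χ ∈ zspan (inducedIrrAbove K ⊥) :=
    fun χ hχ => Submodule.subset_span hχ
  have hrel : ∀ χ ∈ inducedIrrAbove K ⊥, ∀ ξ ∈ inducedIrrAbove K ⊥,
      ξ 1 * classInner (τ₁ χ) X = χ 1 * classInner (τ₁ ξ) X := by
    intro χ hχ ξ hξ
    have h := hX1 χ hχ ξ hξ
    rw [← hext _ (alphaFun_mem_zspanOn _ hχ hξ (hchar χ hχ) (hchar ξ hξ)),
      tau1_alpha _ τ₁ hτ₁ hχ hξ (hchar χ hχ) (hchar ξ hξ),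
      Cfsg.Agent.Lib.Helper80.classInner_sub_left, Cfsg.Agent.Lib.Helper80.classInner_smul_left,
      Cfsg.Agent.Lib.Helper80.classInner_smul_left] at h
    linear_combination h
  obtain ⟨n, hn⟩ := Cfsg.Agent.Lib.Helper26.classInner_gen_int (hτ₁.2.2.2 ζ₀ (hzs ζ₀ hζ₀)) hX
  have he0 : (K.index : ℂ) ≠ 0 := by
    exact_mod_cast Subgroup.index_ne_zero_of_finite
  have heR : (0 : ℝ) < (K.index : ℝ) := by
    exact_mod_cast Nat.pos_of_ne_zero Subgroup.index_ne_zero_of_finite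
  have hw : ∀ ζ ∈ inducedIrrAbove K ⊥,
      classInner (τ₁ ζ) X = (n : ℂ) * ζ 1 / (K.index : ℂ) := by
    intro ζ hζ
    have h := hrel ζ hζ ζ₀ hζ₀
    rw [hdeg, hn] at h
    field_simp
    linear_combination h
  have hw' : ∀ ζ ∈ inducedIrrAbove K ⊥,
      classInner (τ₁ ζ) (conjFun X) = (n : ℂ) * ζ 1 / (K.index : ℂ) := by
    intro ζ hζ
    have hζ' : conjFun ζ ∈ inducedIrrAbove K ⊥ :=
      Cfsg.Agent.Lib.Helper25.conj_mem_above K ⊥ hζ
    rw [classInner_conjFun_right, ← nside_conj K A R hD hA hirr τ₁ hτ₁ hext hζ (hreal ζ hζ),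
      hw _ hζ']
    have h1 : conjFun ζ 1 = ζ 1 := by
      show conj (ζ 1) = ζ 1
      rw [char_one_eq_charDegree (hchar ζ hζ), Complex.conj_natCast]
    rw [h1, char_one_eq_charDegree (hchar ζ hζ)]
    simp
  obtain ⟨Z, hZ⟩ : ∃ Z : G → ℂ, Z = X + conjFun X := ⟨_, rfl⟩
  rw [← hZ] at hnorm
  obtain ⟨T, hT⟩ : ∃ T : Finset (IrrCharacter N), T = Finset.univ.filter
      (fun χ : IrrCharacter N => ¬ ∀ x ∈ K, (χ : N → ℂ) x = (χ : N → ℂ) 1) := ⟨_, rfl⟩
  have hTS : ∀ χ ∈ T, (χ : N → ℂ) ∈ inducedIrrAbove K ⊥ := by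
    intro χ hχ
    rw [hT] at hχ
    exact rel_mem_induced K hirr χ (Finset.mem_filter.1 hχ).2
  have horth : ∀ i ∈ T, ∀ j ∈ T, i ≠ j →
      classInner (τ₁ (i : N → ℂ)) (τ₁ (j : N → ℂ)) = 0 := by
    intro i hi j hj hij
    rw [hτ₁.2.2.1 _ (hzs _ (hTS i hi)) _ (hzs _ (hTS j hj)), classInner_irr, if_neg hij]
  have hnormE : ∀ i ∈ T,
      classInner (τ₁ (i : N → ℂ)) (τ₁ (i : N → ℂ)) = (((1 : ℝ)) : ℂ) := by
    intro i hi
    rw [hτ₁.2.2.1 _ (hzs _ (hTS i hi)) _ (hzs _ (hTS i hi)), classInner_irr, if_pos rfl,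
      Complex.ofReal_one]
  have hbes := Cfsg.Agent.Lib.Helper25.bessel_le T (fun χ : IrrCharacter N => τ₁ (χ : N → ℂ))
    (fun _ => (1 : ℝ)) (fun _ _ => one_ne_zero) horth hnormE Z
  have hval : ∀ χ ∈ T, ‖classInner Z (τ₁ (χ : N → ℂ))‖ ^ 2 / (1 : ℝ)
      = 4 * (n : ℝ) ^ 2 / (K.index : ℝ) ^ 2 * ((charDegree (χ : N → ℂ) ^ 2 : ℕ) : ℝ) := by
    intro χ hχ
    have h1 : classInner (τ₁ (χ : N → ℂ)) Z
        = (((2 * (n : ℝ) * (charDegree (χ : N → ℂ) : ℝ) / (K.index : ℝ)) : ℝ) : ℂ) := by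
      rw [hZ, Cfsg.Agent.Lib.Helper26.classInner_add_right, hw _ (hTS χ hχ), hw' _ (hTS χ hχ),
        char_one_eq_charDegree (hchar _ (hTS χ hχ))]
      push_cast
      ring
    rw [← Cfsg.Agent.Lib.Helper80.classInner_conj_symm, h1, Complex.conj_ofReal,
      Complex.norm_real, Real.norm_eq_abs, sq_abs, div_one]
    push_cast
    field_simp
    ring
  rw [Finset.sum_congr rfl hval, ← Finset.mul_sum, ← Nat.cast_sum] at hbes
  have hsum := sum_rel_deg_sq K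
  rw [← hT] at hsum
  have hcard : Nat.card N = Nat.card K * K.index := (Subgroup.card_mul_index K).symm
  have hsumR : ((∑ χ ∈ T, charDegree (χ : N → ℂ) ^ 2 : ℕ) : ℝ)
      = (K.index : ℝ) * ((Nat.card K : ℝ) - 1) := by
    have h1 : ((∑ χ ∈ T, charDegree (χ : N → ℂ) ^ 2 : ℕ) : ℝ) + (K.index : ℝ)
        = (Nat.card K : ℝ) * (K.index : ℝ) := by
      rw [← Nat.cast_add, hsum, hcard, Nat.cast_mul]
    linarith
  rw [hsumR] at hbes
  have hzR := Cfsg.Agent.Lib.Helper25.classInner_self_re_nonneg Z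
  have hkpos : (0 : ℝ) < (Nat.card K : ℝ) - 1 := by nlinarith
  have hb2 : 4 * (n : ℝ) ^ 2 * ((Nat.card K : ℝ) - 1)
      ≤ (classInner Z Z).re * (K.index : ℝ) := by
    have h3 : 4 * (n : ℝ) ^ 2 / (K.index : ℝ) ^ 2 * ((K.index : ℝ) * ((Nat.card K : ℝ) - 1))
        * (K.index : ℝ) = 4 * (n : ℝ) ^ 2 * ((Nat.card K : ℝ) - 1) := by
      field_simp
    rw [← h3]
    exact mul_le_mul_of_nonneg_right hbes heR.le
  have hn2 : (n : ℝ) ^ 2 < 1 := by
    by_contra hcon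
    push Not at hcon
    nlinarith
  have hn0 : n = 0 := by
    have h4 : n ^ 2 < 1 := by exact_mod_cast hn2
    nlinarith [sq_nonneg n, sq_nonneg (n - 1), sq_nonneg (n + 1)]
  intro ζ hζ
  rw [hw ζ hζ, hn0]
  simp

end bessel

end Cfsg.Agent.Lib.Helper4.PF12
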