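import Mathlib
import Cfsg.Agent.Lib.Helper4.PF12.NSideC
import Cfsg.Agent.Lib.Helper3.CopConj
import Cfsg.Agent.S1501

/-!
# PF (12.x), the side of the non-Frobenius group `L` (helper4): general Dade glue

* `dadeRho A L R χ`: the class function of `L` equal to the coset averages of `χ` on `A`;
* `classInner_dade_rho`: Dade reciprocity `⟨τ α, χ⟩ = ⟨α, ρ χ⟩`;
* `classInner_dade_dade_eq_zero`: Dade images with disjoint supports are orthogonal;
* `cyclic_sum_int`: `∑_{i<p} ζ(u^i) ω^i ∈ p ℤ` for a character `ζ`, `u^p = 1`, `ω^p = 1`;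
* `sum_coset_rho`: the sum of `ρ χ` over a coset `t H` on which the supports are trivial.
-/

set_option autoImplicit false

namespace Cfsg.Agent.Lib.Helper4.PF12

open Cfsg Cfsg.Agent.Lib.Helper80 Cfsg.Agent.Lib.Helper4
open scoped ComplexConjugate

universe u

section rho

variable {G : Type u} [Group G] [Fintype G] {L : Subgroup G} [Fintype L]

open Classical in
/-- The function `ρ χ` on `L`: coset averages on `A`, zero elsewhere. -/
noncomputable def dadeRho (A : Set G) (L : Subgroup G) (R : G → Subgroup G) (χ : G → ℂ) :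
    L → ℂ :=
  fun x => if (x : G) ∈ A then cosetAvg R χ (x : G) else 0

omit [Fintype L] in
theorem dadeRho_of_mem (A : Set G) (R : G → Subgroup G) (χ : G → ℂ) {x : L}
    (hx : (x : G) ∈ A) : dadeRho A L R χ x = cosetAvg R χ (x : G) := by
  unfold dadeRho
  rw [if_pos hx]

omit [Fintype L] in
theorem dadeRho_of_not_mem (A : Set G) (R : G → Subgroup G) (χ : G → ℂ) {x : L}
    (hx : (x : G) ∉ A) : dadeRho A L R χ x = 0 := by
  unfold dadeRho
  rw [if_neg hx]

omit [Fintype L] in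
theorem isClassFunction_dadeRho {A : Set G} {R : G → Subgroup G} (hD : DadeHypothesis A L R)
    {χ : G → ℂ} (hχ : IsClassFunction G χ) : IsClassFunction L (dadeRho A L R χ) := by
  intro g x
  by_cases hg : (g : G) ∈ A
  · have hg' : ((x * g * x⁻¹ : L) : G) ∈ A := by
      have := hD.conj_mem (x : G) x.2 (g : G) hg
      simpa using this
    rw [dadeRho_of_mem A R χ hg, dadeRho_of_mem A R χ hg']
    have e1 : ((x * g * x⁻¹ : L) : G) = (x : G) * (g : G) * (x : G)⁻¹ := by simp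
    rw [e1, cosetAvg_conj hD hχ hg x.2]
  · have hg' : ((x * g * x⁻¹ : L) : G) ∉ A := by
      intro h
      apply hg
      have := hD.conj_mem ((x⁻¹ : L) : G) (x⁻¹).2 _ h
      simpa [mul_assoc] using this
    rw [dadeRho_of_not_mem A R χ hg, dadeRho_of_not_mem A R χ hg']

/-- Dade reciprocity. -/
theorem classInner_dade_rho {A : Set G} {R : G → Subgroup G} (hD : DadeHypothesis A L R)
    (α : L → ℂ) (hα : IsClassFunction L α) (hαA : ∀ x : L, (x : G) ∉ A → α x = 0)
    (χ : G → ℂ) (hχ : IsClassFunction G χ) :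
    classInner (dadeIsometry A L R α) χ = classInner α (dadeRho A L R χ) :=
  (Cfsg.Agent.S1500.result A L R hD α hα hαA).2 χ (dadeRho A L R χ) hχ
    (fun a ha => dadeRho_of_mem A R χ ha)

/-- The Dade map is an isometry. -/
theorem classInner_dade_dade {A : Set G} {R : G → Subgroup G} (hD : DadeHypothesis A L R)
    (α β : L → ℂ) (hα : IsClassFunction L α) (hαA : ∀ x : L, (x : G) ∉ A → α x = 0)
    (hβ : IsClassFunction L β) (hβA : ∀ x : L, (x : G) ∉ A → β x = 0) :
    classInner (dadeIsometry A L R α) (dadeIsometry A L R β) = classInner α β :=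
  (Cfsg.Agent.S1500.result A L R hD α hα hαA).1 β hβ hβA

/-- Dade images with disjoint supports are orthogonal. -/
theorem classInner_dade_dade_eq_zero {N : Subgroup G} [Fintype N] {AL AN : Set G}
    {RL RN : G → Subgroup G} (hDL : DadeHypothesis AL L RL) (hDN : DadeHypothesis AN N RN)
    (α : L → ℂ) (hα : IsClassFunction L α) (β : N → ℂ) (hβ : IsClassFunction N β)
    (hdisj : ∀ g : G, ∀ a : L, (a : G) ∈ AL → α a ≠ 0 →
      (∃ r ∈ RL (a : G), ∃ x : G, x * g * x⁻¹ = (a : G) * r) →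
      ∀ b : N, (b : G) ∈ AN → β b ≠ 0 →
      (∃ r ∈ RN (b : G), ∃ y : G, y * g * y⁻¹ = (b : G) * r) → False) :
    classInner (dadeIsometry AL L RL α) (dadeIsometry AN N RN β) = 0 := by
  unfold classInner
  rw [Finset.sum_eq_zero, mul_zero]
  intro g _
  by_cases h1 : ∃ a : ↥L, (a : G) ∈ AL ∧ ∃ x : G, ∃ u ∈ RL (a : G), x * g * x⁻¹ = (a : G) * u
  · obtain ⟨a, ha, x, r, hr, hx⟩ := h1
    rw [Cfsg.Agent.Lib.Helper25.dadeIsometry_apply hDL α hα g a ha r x hr hx]
    by_cases ha0 : α a = 0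
    · rw [ha0, zero_mul]
    by_cases h2 : ∃ b : ↥N, (b : G) ∈ AN ∧ ∃ y : G, ∃ u ∈ RN (b : G), y * g * y⁻¹ = (b : G) * u
    · obtain ⟨b, hb, y, s, hs, hy⟩ := h2
      rw [Cfsg.Agent.Lib.Helper25.dadeIsometry_apply hDN β hβ g b hb s y hs hy]
      by_cases hb0 : β b = 0
      · rw [hb0, map_zero, mul_zero]
      · exact (hdisj g a ha ha0 ⟨r, hr, x, hx⟩ b hb hb0 ⟨s, hs, y, hy⟩).elim
    · rw [Cfsg.Agent.Lib.Helper25.dadeIsometry_eq_zero β g h2, map_zero, mul_zero]
  · rw [Cfsg.Agent.Lib.Helper25.dadeIsometry_eq_zero α g h1, zero_mul]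

end rho

section cyclic

/-- For a character `ζ`, `u ^ p = 1` and `ω ^ p = 1`, the sum `∑_{i<p} ζ(u^i) ω^i` is a
multiple of `p` (it is `p` times a multiplicity). -/
theorem cyclic_sum_int {N : Type u} [Group N] (ζ : N → ℂ) (hζ : IsCharacter N ζ) (u : N)
    (p : ℕ) (hp : 0 < p) (hu : u ^ p = 1) (ω : ℂ) (hω : ω ^ p = 1) :
    ∃ m : ℤ, ∑ i ∈ Finset.range p, ζ (u ^ i) * ω ^ i = (p : ℂ) * m := by
  obtain ⟨n, ρ₀, rfl⟩ := hζ
  obtain ⟨B, hB⟩ : ∃ B : Module.End ℂ (Fin n → ℂ), B = ω • ρ₀ u := ⟨_, rfl⟩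
  have hBp : B ^ p = 1 := by
    rw [hB, smul_pow, hω, one_smul, ← map_pow, hu, map_one]
  obtain ⟨T, hT⟩ : ∃ T : Module.End ℂ (Fin n → ℂ), T = ∑ i ∈ Finset.range p, B ^ i := ⟨_, rfl⟩
  have hBT : B * T = T := by
    have h := mul_geom_sum B p
    rw [← hT, hBp, sub_self, sub_mul, one_mul] at h
    exact sub_eq_zero.mp h
  have hBiT : ∀ i : ℕ, B ^ i * T = T := by
    intro i
    induction i with
    | zero => rw [pow_zero, one_mul]
    | succ i ih => rw [pow_succ, mul_assoc, hBT, ih]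
  have hTT : T * T = (p : ℂ) • T := by
    have h0 : T * T = ∑ i ∈ Finset.range p, B ^ i * T := by
      nth_rewrite 1 [hT]
      rw [Finset.sum_mul]
    rw [h0, Finset.sum_congr rfl (fun i _ => hBiT i), Finset.sum_const, Finset.card_range,
      ← Nat.cast_smul_eq_nsmul ℂ]
  have hp0 : (p : ℂ) ≠ 0 := by exact_mod_cast hp.ne'
  obtain ⟨E, hE⟩ : ∃ E : Module.End ℂ (Fin n → ℂ), E = (p : ℂ)⁻¹ • T := ⟨_, rfl⟩
  have hEE : IsIdempotentElem E := by
    show E * E = E
    rw [hE, smul_mul_smul_comm, hTT, smul_smul]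
    congr 1
    field_simp
  have htr := (LinearMap.IsIdempotentElem.isProj_range E hEE).trace
  refine ⟨(Module.finrank ℂ (LinearMap.range E) : ℕ), ?_⟩
  have h1 : ∑ i ∈ Finset.range p, ρ₀.character (u ^ i) * ω ^ i = LinearMap.trace ℂ _ T := by
    rw [hT, map_sum]
    apply Finset.sum_congr rfl
    intro i _
    rw [hB, smul_pow, ← map_pow, map_smul, smul_eq_mul, mul_comm]
    rfl
  have h2 : LinearMap.trace ℂ _ T = (p : ℂ) * LinearMap.trace ℂ _ E := by
    rw [hE, map_smul, smul_eq_mul]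
    field_simp
  rw [h1, h2, htr]
  simp

end cyclic

end Cfsg.Agent.Lib.Helper4.PF12
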