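import Mathlib

/-!
# PF (12.x): the arithmetic endgame (helper4)

`pf12_arith`: the final numerical contradiction of the character core.
-/

set_option autoImplicit false

namespace Cfsg.Agent.Lib.Helper4.PF12

set_option maxHeartbeats 3200000 in
theorem pf12_arith (e p cK cH cL cN cD : ℕ) (g m : ℤ) (he3 : 3 ≤ e) (hep : e + 2 ≤ p)
    (hdvd : e ∣ p ^ 2 - 1) (hK : p ^ 2 ≤ cK) (hN : cN = e * cK) (hL : cL ≤ cH * cK)
    (hL0 : 0 < cL) (hH : (p + 1) * cD ≤ cH) (hD0 : 0 < cD)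
    (hineq : (cL : ℝ)⁻¹ * (((cH : ℝ) - cD) * ((e : ℝ) + g + p * m) ^ 2) +
      (cN : ℝ)⁻¹ * ((cN : ℝ) - (e : ℝ) ^ 2 - 2 * g * e + (g : ℝ) ^ 2 * ((cK : ℝ) - 1)) ≤ 1) :
    False := by
  have heR : (3 : ℝ) ≤ e := by exact_mod_cast he3
  have hepR : (e : ℝ) + 2 ≤ p := by exact_mod_cast hep
  have hKR : (p : ℝ) ^ 2 ≤ cK := by exact_mod_cast hK
  have hNR : (cN : ℝ) = e * cK := by exact_mod_cast hN
  have hLR : (cL : ℝ) ≤ cH * cK := by exact_mod_cast hL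
  have hL0R : (0 : ℝ) < cL := by exact_mod_cast hL0
  have hHR : ((p : ℝ) + 1) * cD ≤ cH := by exact_mod_cast hH
  have hD0R : (1 : ℝ) ≤ cD := by exact_mod_cast hD0
  have hpR : (5 : ℝ) ≤ p := by linarith
  have hcKpos : (0 : ℝ) < cK := by nlinarith
  have hcNpos : (0 : ℝ) < cN := by rw [hNR]; nlinarith
  have hcHD : (0 : ℝ) ≤ (cH : ℝ) - cD := by nlinarith
  have hcHpos : (0 : ℝ) < cH := by nlinarith
  obtain ⟨c, hc⟩ : ∃ c : ℝ, c = (e : ℝ) + g + p * m := ⟨_, rfl⟩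
  obtain ⟨A, hA⟩ : ∃ A : ℝ, A = ((cH : ℝ) - cD) * c ^ 2 := ⟨_, rfl⟩
  have hA0 : 0 ≤ A := by rw [hA]; exact mul_nonneg hcHD (sq_nonneg _)
  obtain ⟨B, hB⟩ : ∃ B : ℝ, B = (e : ℝ) ^ 2 + 2 * g * e - (g : ℝ) ^ 2 * ((cK : ℝ) - 1) :=
    ⟨_, rfl⟩
  rw [← hc, ← hA] at hineq
  have hmain : A * cN ≤ B * cL := by
    have h1 : (cN : ℝ)⁻¹ * ((cN : ℝ) - (e : ℝ) ^ 2 - 2 * g * e + (g : ℝ) ^ 2 * ((cK : ℝ) - 1))
        = 1 - (cN : ℝ)⁻¹ * B := by
      rw [hB]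
      field_simp
      ring
    rw [h1] at hineq
    have h2 : (cL : ℝ)⁻¹ * A ≤ (cN : ℝ)⁻¹ * B := by linarith
    have h3 := mul_le_mul_of_nonneg_left h2 (mul_pos hL0R hcNpos).le
    have h4 : (cL : ℝ) * cN * ((cL : ℝ)⁻¹ * A) = A * cN := by field_simp
    have h5 : (cL : ℝ) * cN * ((cN : ℝ)⁻¹ * B) = B * cL := by field_simp
    rw [h4, h5] at h3
    exact h3
  -- Step A: `g = 0`
  have hg0 : g = 0 := by
    by_contra hg
    have hg1 : (1 : ℤ) ≤ g ^ 2 := by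
      have h := Int.one_le_abs hg
      nlinarith [abs_nonneg g, sq_abs g]
    have hg2 : g ≤ g ^ 2 := by
      rcases le_or_gt g 0 with h | h
      · nlinarith
      · nlinarith
    have hg1R : (1 : ℝ) ≤ (g : ℝ) ^ 2 := by exact_mod_cast hg1
    have hg2R : (g : ℝ) ≤ (g : ℝ) ^ 2 := by exact_mod_cast hg2
    have hB0 : B < 0 := by
      rw [hB]
      have h1 : (e : ℝ) ^ 2 + 4 * e + 3 ≤ (cK : ℝ) - 1 := by nlinarith
      have h2 : (g : ℝ) ^ 2 * ((e : ℝ) ^ 2 + 4 * e + 3) ≤ (g : ℝ) ^ 2 * ((cK : ℝ) - 1) :=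
        mul_le_mul_of_nonneg_left h1 (sq_nonneg _)
      nlinarith [mul_nonneg (sq_nonneg (e : ℝ)) (sub_nonneg.mpr hg1R),
        mul_nonneg (by linarith : (0 : ℝ) ≤ e) (sub_nonneg.mpr hg2R)]
    have hx1 : B * cL < 0 := mul_neg_of_neg_of_pos hB0 hL0R
    have hx2 := mul_nonneg hA0 hcNpos.le
    linarith
  -- Step B: `c ^ 2 ≤ e`
  have hB' : B = (e : ℝ) ^ 2 := by rw [hB, hg0]; simp
  obtain ⟨ci, hci⟩ : ∃ ci : ℤ, ci = (e : ℤ) + p * m := ⟨_, rfl⟩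
  have hc' : c = (ci : ℝ) := by rw [hc, hci, hg0]; push_cast; ring
  rw [hB'] at hmain
  have h6 : ((cH : ℝ) - cD) * c ^ 2 ≤ e * cH := by
    have hpos : (0 : ℝ) < e * cK := by nlinarith
    apply le_of_mul_le_mul_right _ hpos
    have h7 : ((cH : ℝ) - cD) * c ^ 2 * (e * cK) = A * cN := by rw [hA, hNR]
    rw [h7]
    nlinarith [mul_le_mul_of_nonneg_left hLR (sq_nonneg (e : ℝ))]
  have h8 : (p : ℝ) * c ^ 2 ≤ ((p : ℝ) + 1) * e := by
    apply le_of_mul_le_mul_right _ hcHpos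
    have h9 : (p : ℝ) * cH ≤ ((p : ℝ) + 1) * ((cH : ℝ) - cD) := by nlinarith
    nlinarith [mul_le_mul_of_nonneg_left h9 (sq_nonneg c),
      mul_le_mul_of_nonneg_left h6 (by linarith : (0 : ℝ) ≤ (p : ℝ) + 1)]
  rw [hc'] at h8
  have h8' : (p : ℤ) * ci ^ 2 ≤ ((p : ℤ) + 1) * e := by exact_mod_cast h8
  have hpZ : (e : ℤ) + 2 ≤ p := by exact_mod_cast hep
  have heZ : (3 : ℤ) ≤ e := by exact_mod_cast he3
  have hci2 : ci ^ 2 ≤ e := by
    by_contra h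
    push Not at h
    have h' : (e : ℤ) + 1 ≤ ci ^ 2 := h
    nlinarith
  -- Step C
  rcases lt_trichotomy m 0 with hm | hm | hm
  · have hm' : m ≤ -1 := by omega
    obtain ⟨d, hd⟩ : ∃ d : ℤ, d = (p : ℤ) - e := ⟨_, rfl⟩
    have hd2 : 2 ≤ d := by rw [hd]; linarith
    have hcid : d ≤ -ci := by
      rw [hci, hd]
      nlinarith
    have hd2e : d ^ 2 ≤ e := by nlinarith
    obtain ⟨k, hk⟩ := hdvd
    have hp1 : 1 ≤ p ^ 2 := Nat.one_le_pow _ _ (by omega)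
    have hk' : (p : ℤ) ^ 2 = e * k + 1 := by
      have h := congrArg (fun n : ℕ => (n : ℤ)) hk
      push_cast [Nat.cast_sub hp1] at h
      linarith
    obtain ⟨t, ht⟩ : ∃ t : ℤ, t = (k : ℤ) - e - 2 * d := ⟨_, rfl⟩
    have hdt : d ^ 2 - 1 = e * t := by
      have hp' : (p : ℤ) = e + d := by rw [hd]; ring
      rw [hp'] at hk'
      rw [ht]
      linarith [hk']
    rcases le_or_gt t 0 with h | h
    · nlinarith
    · have h1 : (1 : ℤ) ≤ t := h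
      nlinarith
  · rw [hm] at hci
    have : ci = e := by rw [hci]; ring
    rw [this] at hci2
    nlinarith
  · have hm' : 1 ≤ m := hm
    have h1 : (e : ℤ) + p ≤ ci := by rw [hci]; nlinarith
    nlinarith

end Cfsg.Agent.Lib.Helper4.PF12
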