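import Mathlib
import Cfsg.Agent.Lib.Helper4.PF12.LSideA
import Cfsg.Agent.Lib.Helper3.DadeConj
import Cfsg.Agent.Lib.Helper3.BrauerIdeal
import Cfsg.Agent.Lib.Helper69.Wielandt
import Cfsg.Agent.Lib.Helper26.VChar

/-!
# PF (12.x), the side of the non-Frobenius group `L` (helper4): Bessel transfer, integrality,
coset sums

* `lside_bessel`: the Bessel argument of `nside_bessel` for `X = τ_L β`, read on `L`:
  `⟨β, ρ(τ₁ ζ)⟩ = 0`;
* `indFun_vanish_off`: induced functions from a subgroup whose non-identity elements lie in `A`;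
* `lside_int`: `⟨ρ ψ|F, f⟩ ∈ ℤ` for a generalized character `f` of `F` vanishing at `1`;
* `sum_coset_rho`: the sum of `ρ χ` over a coset `t H` with trivial supports.
-/

set_option autoImplicit false

namespace Cfsg.Agent.Lib.Helper4.PF12

open Cfsg Cfsg.Agent.Lib.Helper80 Cfsg.Agent.Lib.Helper4
open scoped ComplexConjugate

universe u

section lb

variable {G : Type u} [Group G] [Fintype G] {L N : Subgroup G} [Fintype L] [Fintype N]

/-- The Bessel argument, read on the side of `L`. -/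
theorem lside_bessel (K : Subgroup N) [K.Normal] (AL AN : Set G) (RL RN : G → Subgroup G)
    (hDL : DadeHypothesis AL L RL) (hDN : DadeHypothesis AN N RN)
    (hAN : ∀ x : N, (x : G) ∈ AN ↔ x ∈ K ∧ x ≠ 1)
    (hirr : ∀ χ ∈ inducedIrrAbove K ⊥, IsIrrCharacter N χ)
    (hreal : ∀ χ ∈ inducedIrrAbove K ⊥, conjFun χ ≠ χ)
    (τ₁ : (N → ℂ) → (G → ℂ)) (hτ₁ : IsLinearIsometryOn (zspan (inducedIrrAbove K ⊥)) τ₁)
    (hext : ∀ α ∈ zspanOn (inducedIrrAbove K ⊥) ({1}ᶜ : Set N), τ₁ α = dadeIsometry AN N RN α)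
    (ζ₀ : N → ℂ) (hζ₀ : ζ₀ ∈ inducedIrrAbove K ⊥) (hdeg : ζ₀ 1 = (K.index : ℂ))
    (β : L → ℂ) (hβ : IsGeneralizedCharacter L β) (hβA : ∀ x : L, (x : G) ∉ AL → β x = 0)
    (hcross : ∀ χ ∈ inducedIrrAbove K ⊥, ∀ ξ ∈ inducedIrrAbove K ⊥,
      classInner (dadeIsometry AN N RN (alphaFun χ ξ)) (dadeIsometry AL L RL β) = 0)
    (hnorm : (classInner (β + conjFun β) (β + conjFun β)).re * (K.index : ℝ)
      < 4 * ((Nat.card K : ℝ) - 1)) :
    ∀ ζ ∈ inducedIrrAbove K ⊥, classInner β (dadeRho AL L RL (τ₁ ζ)) = 0 := by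
  intro ζ hζ
  have hβc : IsClassFunction L β := isClassFunction_of_gen hβ
  have hX := Cfsg.Agent.S1501.result AL L RL hDL β hβ hβA
  have hsum : dadeIsometry AL L RL β + conjFun (dadeIsometry AL L RL β)
      = dadeIsometry AL L RL (β + conjFun β) := by
    rw [dadeIsometry_add, Cfsg.Agent.Lib.Helper3.DadeConj.dadeIsometry_conj]
  have hcc : IsClassFunction L (β + conjFun β) := by
    intro g x
    show β _ + conjFun β _ = β g + conjFun β g
    unfold conjFun
    rw [hβc g x]
  have hcA : ∀ x : L, (x : G) ∉ AL → (β + conjFun β) x = 0 := by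
    intro x hx
    show β x + conjFun β x = 0
    unfold conjFun
    rw [hβA x hx]
    simp
  have hn : classInner (dadeIsometry AL L RL β + conjFun (dadeIsometry AL L RL β))
      (dadeIsometry AL L RL β + conjFun (dadeIsometry AL L RL β))
      = classInner (β + conjFun β) (β + conjFun β) := by
    rw [hsum, classInner_dade_dade hDL _ _ hcc hcA hcc hcA]
  have h0 := nside_bessel K AN RN hDN hAN hirr hreal τ₁ hτ₁ hext ζ₀ hζ₀ hdeg _ hX hcross
    (by rw [hn]; exact hnorm) ζ hζ
  have hτc : IsClassFunction G (τ₁ ζ) :=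
    isClassFunction_of_gen (hτ₁.2.2.2 ζ (Submodule.subset_span hζ))
  rw [← classInner_dade_rho hDL β hβc hβA (τ₁ ζ) hτc,
    ← Cfsg.Agent.Lib.Helper80.classInner_conj_symm, h0, map_zero]

omit [Fintype G] in
/-- Functions induced from a subgroup `F` of `L` all of whose non-identity elements lie in `A`
vanish off `A` when the inducing function vanishes at `1`. -/
theorem indFun_vanish_off {AL : Set G} {RL : G → Subgroup G} (hDL : DadeHypothesis AL L RL)
    (F : Subgroup L) (hFA : ∀ x : L, x ∈ F → x ≠ 1 → (x : G) ∈ AL) (f : F → ℂ) (hf1 : f 1 = 0) :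
    ∀ x : L, (x : G) ∉ AL → indFun F f x = 0 := by
  intro x hx
  apply Cfsg.Agent.Lib.Helper69.indFun_eq_zero_of_vanish
  intro c hc
  by_cases h1 : c⁻¹ * x * c = 1
  · have h2 : (⟨c⁻¹ * x * c, hc⟩ : F) = 1 := Subtype.ext h1
    rw [h2, hf1]
  · exfalso
    apply hx
    have h2 := hFA _ hc h1
    have h3 := hDL.conj_mem (c : G) c.2 _ h2
    have h4 : (c : G) * ((c⁻¹ * x * c : L) : G) * (c : G)⁻¹ = (x : G) := by
      push_cast
      group
    rwa [h4] at h3

/-- Integrality of the inner products of `ρ ψ` with generalized characters of `F` vanishing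
at `1`. -/
theorem lside_int {AL : Set G} {RL : G → Subgroup G} (hDL : DadeHypothesis AL L RL)
    (F : Subgroup L) [Fintype F] (hFA : ∀ x : L, x ∈ F → x ≠ 1 → (x : G) ∈ AL) (f : F → ℂ)
    (hf : IsGeneralizedCharacter F f) (hf1 : f 1 = 0) (ψ : G → ℂ)
    (hψ : IsGeneralizedCharacter G ψ) :
    ∃ m : ℤ, classInner (fun x : F => dadeRho AL L RL ψ x) f = m := by
  have := Fintype.ofFinite (IrrCharacter G)
  have hψc := isClassFunction_of_gen hψ
  have hρc := isClassFunction_dadeRho hDL hψc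
  have hgen : IsGeneralizedCharacter L (indFun F f) := by
    obtain ⟨a, b, ha, hb, rfl⟩ := hf
    exact ⟨indFun F a, indFun F b, isCharacter_indFun F ha, isCharacter_indFun F hb,
      Cfsg.Agent.Lib.Helper3.indFun_sub F a b⟩
  have hvan := indFun_vanish_off hDL F hFA f hf1
  have hX := Cfsg.Agent.S1501.result AL L RL hDL _ hgen hvan
  obtain ⟨m, hm⟩ := Cfsg.Agent.Lib.Helper26.classInner_gen_int hX hψ
  refine ⟨m, ?_⟩
  rw [classInner_dade_rho hDL _ (isClassFunction_of_gen hgen) hvan ψ hψc,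
    Cfsg.Agent.Lib.Helper80.frobenius_reciprocity F f _ hρc] at hm
  rw [← Cfsg.Agent.Lib.Helper80.classInner_conj_symm, hm]
  simp

end lb

section cos

variable {G : Type u} [Group G] [Fintype G] {L : Subgroup G} [Fintype L]

omit [Fintype G] in
theorem cosetAvg_bot (R : G → Subgroup G) (χ : G → ℂ) (a : G) (h : R a = ⊥) :
    cosetAvg R χ a = χ a := by
  unfold cosetAvg
  rw [h]
  simp

open Classical in
/-- The sum of `ρ χ` over a coset `t H` on which all supports are trivial, for `t` of order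
prime to `|H|`: it is `|H|` times the average of `χ` over `t C_H(t)`. -/
theorem sum_coset_rho (H : Subgroup L) [hHn : H.Normal] [Fintype H] (AL : Set G)
    (RL RN : G → Subgroup G) (χ : G → ℂ) (hχ : IsClassFunction G χ) (t : L)
    (hcop : (orderOf t).Coprime (Nat.card H))
    (htA : ∀ h : H, ((t * h : L) : G) ∈ AL) (htR : ∀ h : H, RL ((t * h : L) : G) = ⊥)
    (hRN : RN (t : G) = H.map L.subtype ⊓ Subgroup.centralizer {(t : G)}) :
    ∑ h : H, dadeRho AL L RL χ (t * h) = (Nat.card H : ℂ) * cosetAvg RN χ (t : G) := by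
  set K : Subgroup G := H.map L.subtype with hK
  have hcardK : Nat.card K = Nat.card H := by
    rw [hK]
    exact Nat.card_congr (H.equivMapOfInjective L.subtype L.subtype_injective).symm.toEquiv
  have hmemK : ∀ g : G, g ∈ K ↔ ∃ hg : g ∈ L, (⟨g, hg⟩ : L) ∈ H := by
    intro g
    rw [hK, Subgroup.mem_map]
    constructor
    · rintro ⟨x, hx, rfl⟩
      exact ⟨x.2, hx⟩
    · rintro ⟨hg, h⟩
      exact ⟨⟨g, hg⟩, h, rfl⟩
  have ha : (t : G) ∈ Subgroup.normalizer (K : Set G) := by
    rw [Subgroup.mem_normalizer_iff]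
    intro g
    rw [hmemK, hmemK]
    constructor
    · rintro ⟨hg, h⟩
      exact ⟨L.mul_mem (L.mul_mem t.2 hg) (L.inv_mem t.2), hHn.conj_mem _ h t⟩
    · rintro ⟨hg, h⟩
      have hg' : g ∈ L := by
        have : g = (t : G)⁻¹ * ((t : G) * g * (t : G)⁻¹) * (t : G) := by group
        rw [this]
        exact L.mul_mem (L.mul_mem (L.inv_mem t.2) hg) t.2
      refine ⟨hg', ?_⟩
      have h2 := hHn.conj_mem _ h t⁻¹
      have h3 : t⁻¹ * (⟨(t : G) * g * (t : G)⁻¹, hg⟩ : L) * t⁻¹⁻¹ = ⟨g, hg'⟩ := by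
        apply Subtype.ext
        push_cast
        group
      rwa [h3] at h2
  have hord : orderOf (t : G) = orderOf t := by
    exact (Subgroup.orderOf_coe t)
  have hcop' : (orderOf (t : G)).Coprime (Nat.card K) := by rw [hord, hcardK]; exact hcop
  have hsc := Cfsg.Agent.Lib.Helper3.CopConj.sum_coset_eq K (t : G) ha hcop' χ hχ
  -- the left side
  have hL : ∑ h : H, dadeRho AL L RL χ (t * h) = ∑ g : G, (if g ∈ K then χ (g * (t : G)) else 0) := by
    have h1 : ∀ h : H, dadeRho AL L RL χ (t * h) = χ (((h : L) : G) * (t : G)) := by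
      intro h
      rw [dadeRho_of_mem AL RL χ (htA h), cosetAvg_bot RL χ _ (htR h)]
      have : ((t * h : L) : G) = (t : G) * ((((h : L) : G)) * (t : G)) * (t : G)⁻¹ := by
        push_cast
        group
      rw [this, hχ]
    rw [Finset.sum_congr rfl (fun h _ => h1 h)]
    rw [← Finset.sum_filter]
    symm
    apply Finset.sum_bij (fun (g : G) (hg : g ∈ Finset.univ.filter (fun g : G => g ∈ K)) =>
      (⟨⟨g, ((hmemK g).mp (Finset.mem_filter.mp hg).2).1⟩,
        ((hmemK g).mp (Finset.mem_filter.mp hg).2).2⟩ : H))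
    · intro g hg
      exact Finset.mem_univ _
    · intro g₁ hg₁ g₂ hg₂ h
      have := congrArg (fun x : H => ((x : L) : G)) h
      exact this
    · intro h _
      refine ⟨((h : L) : G), ?_, ?_⟩
      · rw [Finset.mem_filter]
        exact ⟨Finset.mem_univ _, (hmemK _).mpr ⟨(h : L).2, h.2⟩⟩
      · rfl
    · intro g hg
      rfl
  have hR : cosetAvg RN χ (t : G) = (Nat.card ↥(K ⊓ Subgroup.centralizer ({(t : G)} : Set G)) : ℂ)⁻¹ *
      ∑ c : G, (if c ∈ K ⊓ Subgroup.centralizer ({(t : G)} : Set G) then χ (c * (t : G)) else 0) := by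
    rw [cosetAvg_eq_sum, hRN]
    congr 1
    apply Finset.sum_congr rfl
    intro c _
    by_cases hc : c ∈ K ⊓ Subgroup.centralizer ({(t : G)} : Set G)
    · rw [if_pos hc, if_pos hc]
      have h2 := Subgroup.mem_centralizer_iff.mp hc.2 (t : G) (Set.mem_singleton _)
      rw [h2]
    · rw [if_neg hc, if_neg hc]
  have hC0 : (Nat.card ↥(K ⊓ Subgroup.centralizer ({(t : G)} : Set G)) : ℂ) ≠ 0 := by
    exact_mod_cast Nat.card_pos.ne'
  rw [hL, hR, ← hcardK]
  rw [eq_comm, mul_left_comm, ← hsc, ← mul_assoc, inv_mul_cancel₀ hC0, one_mul]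

end cos

end Cfsg.Agent.Lib.Helper4.PF12
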