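import Mathlib
import Cfsg.Agent.Lib.Helper4.PF12.LSideB
import Cfsg.Agent.Lib.Helper25.CohSys
import Cfsg.Agent.Lib.Helper25.IndAbove

/-!
# PF (12.x), the side of the non-Frobenius group `L` (helper4): the two Bessel applications

* `re_norm_add_conj_le`, `re_norm_sub_le`: norm estimates;
* `lside_avg`: (12.5') `⟨Ind_H^L θ, ρ⟩ = ⟨Ind_H^L θ', ρ⟩` for non-principal linear `θ, θ'` of `H`;
* `lside_x1`: `⟨ρ|F, f⟩ = 0` for generalized characters `f` of `F` vanishing at `1` whose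
  induced function has small norm and is orthogonal to the `τ_N α`.
-/

set_option autoImplicit false

namespace Cfsg.Agent.Lib.Helper4.PF12

open Cfsg Cfsg.Agent.Lib.Helper80 Cfsg.Agent.Lib.Helper4
open scoped ComplexConjugate

universe u

section norms

variable {X : Type u} [Group X] [Fintype X]

theorem re_norm_add_conj_le (f : X → ℂ) :
    (classInner (f + conjFun f) (f + conjFun f)).re ≤ 4 * (classInner f f).re := by
  rw [Cfsg.Agent.Lib.Helper25.classInner_self_eq, Cfsg.Agent.Lib.Helper25.classInner_self_eq,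
    Complex.ofReal_re, Complex.ofReal_re]
  have hpt : ∑ x : X, Complex.normSq ((f + conjFun f) x) ≤ 4 * ∑ x : X, Complex.normSq (f x) := by
    rw [Finset.mul_sum]
    apply Finset.sum_le_sum
    intro x _
    show Complex.normSq (f x + conj (f x)) ≤ 4 * Complex.normSq (f x)
    have h : f x + conj (f x) = ((2 * (f x).re : ℝ) : ℂ) := by
      rw [Complex.add_conj]
    rw [h, Complex.normSq_ofReal, Complex.normSq_apply]
    nlinarith [mul_self_nonneg (f x).im]
  have hc : (0 : ℝ) ≤ (Nat.card X : ℝ)⁻¹ := by positivity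
  nlinarith [mul_le_mul_of_nonneg_left hpt hc]

theorem re_norm_sub_le {a b : X → ℂ} (ha : IsCharacter X a) (hb : IsCharacter X b) :
    (classInner (a - b) (a - b)).re ≤ (classInner a a).re + (classInner b b).re := by
  obtain ⟨m, hm⟩ := classInner_nat ha hb
  have hm' : classInner b a = m := by
    rw [← Cfsg.Agent.Lib.Helper80.classInner_conj_symm, hm]
    simp
  rw [Cfsg.Agent.Lib.Helper26.classInner_sub_left, Cfsg.Agent.Lib.Helper26.classInner_sub_right,
    Cfsg.Agent.Lib.Helper26.classInner_sub_right, hm, hm']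
  simp only [Complex.sub_re, Complex.natCast_re]
  have : (0 : ℝ) ≤ m := Nat.cast_nonneg m
  linarith

theorem isGeneralizedCharacter_indFun (F : Subgroup X) {f : F → ℂ}
    (hf : IsGeneralizedCharacter F f) : IsGeneralizedCharacter X (indFun F f) := by
  obtain ⟨a, b, ha, hb, rfl⟩ := hf
  exact ⟨indFun F a, indFun F b, isCharacter_indFun F ha, isCharacter_indFun F hb,
    Cfsg.Agent.Lib.Helper3.indFun_sub F a b⟩

end norms

section avgsec

variable {G : Type u} [Group G] [Fintype G] {L N : Subgroup G} [Fintype L] [Fintype N]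

/-- (12.5'): the inner products of `ρ(τ₁ ζ)` with the characters induced from non-principal
linear characters of `H` all agree. -/
theorem lside_avg (H : Subgroup L) [hHn : H.Normal] (K : Subgroup N) [K.Normal]
    (AL AN : Set G) (RL RN : G → Subgroup G)
    (hDL : DadeHypothesis AL L RL) (hDN : DadeHypothesis AN N RN)
    (hAN : ∀ x : N, (x : G) ∈ AN ↔ x ∈ K ∧ x ≠ 1)
    (hirr : ∀ χ ∈ inducedIrrAbove K ⊥, IsIrrCharacter N χ)
    (hreal : ∀ χ ∈ inducedIrrAbove K ⊥, conjFun χ ≠ χ)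
    (τ₁ : (N → ℂ) → (G → ℂ)) (hτ₁ : IsLinearIsometryOn (zspan (inducedIrrAbove K ⊥)) τ₁)
    (hext : ∀ α ∈ zspanOn (inducedIrrAbove K ⊥) ({1}ᶜ : Set N), τ₁ α = dadeIsometry AN N RN α)
    (ζ₀ : N → ℂ) (hζ₀ : ζ₀ ∈ inducedIrrAbove K ⊥) (hdeg : ζ₀ 1 = (K.index : ℂ))
    (hHA : ∀ x : L, x ∈ H → x ≠ 1 → (x : G) ∈ AL)
    (hD : ∀ g : G, ∀ a : L, a ∈ H → a ≠ 1 →
      (∃ r ∈ RL (a : G), ∃ x : G, x * g * x⁻¹ = (a : G) * r) →
      ∀ b : N, b ∈ K → b ≠ 1 → (∃ s ∈ RN (b : G), ∃ y : G, y * g * y⁻¹ = (b : G) * s) → False)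
    (hNI : ∀ θ : H → ℂ, IsIrrCharacter H θ → θ ≠ (fun _ => 1) →
      (classInner (indFun H θ) (indFun H θ)).re * (K.index : ℝ) ≤ (Nat.card K : ℝ) - 2)
    (hNO : ∀ θ : H → ℂ, IsIrrCharacter H θ → θ ≠ (fun _ => 1) →
      classInner (indFun H θ) (indFun H (conjFun θ)) = 0)
    (θ θ' : H → ℂ) (hθ : IsIrrCharacter H θ) (hθ' : IsIrrCharacter H θ') (h1 : θ 1 = 1)
    (h1' : θ' 1 = 1) (hne : θ ≠ fun _ => 1) (hne' : θ' ≠ fun _ => 1) :
    ∀ ζ ∈ inducedIrrAbove K ⊥, classInner (indFun H θ) (dadeRho AL L RL (τ₁ ζ)) =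
      classInner (indFun H θ') (dadeRho AL L RL (τ₁ ζ)) := by
  intro ζ hζ
  obtain ⟨a, ha⟩ : ∃ a : L → ℂ, a = indFun H θ := ⟨_, rfl⟩
  obtain ⟨b, hb⟩ : ∃ b : L → ℂ, b = indFun H θ' := ⟨_, rfl⟩
  rw [← ha, ← hb]
  have hac : IsCharacter L a := by
    rw [ha]; exact isCharacter_indFun H (isCharacter_of_isIrrCharacter hθ)
  have hbc : IsCharacter L b := by
    rw [hb]; exact isCharacter_indFun H (isCharacter_of_isIrrCharacter hθ')
  have hβ : IsGeneralizedCharacter L (a - b) := ⟨a, b, hac, hbc, rfl⟩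
  have hab : a - b = indFun H (θ - θ') := by
    rw [ha, hb]; exact (Cfsg.Agent.Lib.Helper3.indFun_sub H θ θ').symm
  have hβA : ∀ x : L, (x : G) ∉ AL → (a - b) x = 0 := by
    rw [hab]
    exact indFun_vanish_off hDL H hHA (θ - θ') (by simp [h1, h1'])
  have hβH : ∀ x : L, x ∉ H → (a - b) x = 0 := by
    intro x hx
    rw [hab]
    apply Cfsg.Agent.Lib.Helper69.indFun_eq_zero_of_vanish
    intro c hc
    exfalso
    apply hx
    have h2 := hHn.conj_mem _ hc c
    have h3 : c * (c⁻¹ * x * c) * c⁻¹ = x := by group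
    rwa [h3] at h2
  have hcross : ∀ χ ∈ inducedIrrAbove K ⊥, ∀ ξ ∈ inducedIrrAbove K ⊥,
      classInner (dadeIsometry AN N RN (alphaFun χ ξ)) (dadeIsometry AL L RL (a - b)) = 0 := by
    intro χ hχ ξ hξ
    rw [← Cfsg.Agent.Lib.Helper80.classInner_conj_symm,
      classInner_dade_dade_eq_zero hDL hDN (a - b) (isClassFunction_of_gen hβ) (alphaFun χ ξ)
        (isClassFunction_alphaFun (isCharacter_of_isIrrCharacter (hirr χ hχ))
          (isCharacter_of_isIrrCharacter (hirr ξ hξ))) ?_, map_zero]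
    intro g x hxA hx0 hex y hyA hy0 hey
    have hxH : x ∈ H := by
      by_contra h
      exact hx0 (hβH x h)
    have hx1 : x ≠ 1 := by
      rintro rfl
      exact hDL.one_not_mem (by simpa using hxA)
    have hy := (hAN y).mp hyA
    exact hD g x hxH hx1 hex y hy.1 hy.2 hey
  have key : ∀ θ : H → ℂ, IsIrrCharacter H θ → θ ≠ (fun _ => 1) →
      (classInner (indFun H θ + conjFun (indFun H θ))
        (indFun H θ + conjFun (indFun H θ))).re = 2 * (classInner (indFun H θ) (indFun H θ)).re := by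
    intro θ hθ hne
    have e2 : conjFun (indFun H θ) = indFun H (conjFun θ) :=
      Cfsg.Agent.Lib.Helper25.conjFun_indFun H θ
    have o1 := hNO θ hθ hne
    rw [← e2] at o1
    have o2 : classInner (conjFun (indFun H θ)) (indFun H θ) = 0 := by
      rw [← Cfsg.Agent.Lib.Helper80.classInner_conj_symm, o1, map_zero]
    have o3 : classInner (conjFun (indFun H θ)) (conjFun (indFun H θ)) =
        conj (classInner (indFun H θ) (indFun H θ)) := by
      rw [classInner_conjFun_right, conjFun_conjFun]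
    rw [Cfsg.Agent.Lib.Helper26.classInner_add_left, Cfsg.Agent.Lib.Helper26.classInner_add_right,
      Cfsg.Agent.Lib.Helper26.classInner_add_right, o1, o2, o3]
    simp only [add_zero, zero_add, Complex.add_re, Complex.conj_re]
    ring
  have hnorm : (classInner ((a - b) + conjFun (a - b)) ((a - b) + conjFun (a - b))).re
      * (K.index : ℝ) < 4 * ((Nat.card K : ℝ) - 1) := by
    have e1 : (a - b) + conjFun (a - b) = (a + conjFun a) - (b + conjFun b) := by
      funext x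
      simp only [conjFun, Pi.add_apply, Pi.sub_apply, map_sub]
      ring
    have hca : IsCharacter L (conjFun a) := isCharacter_conj hac
    have hcb : IsCharacter L (conjFun b) := isCharacter_conj hbc
    have h2 := re_norm_sub_le (isCharacter_add hac hca) (isCharacter_add hbc hcb)
    rw [e1]
    have k1 := key θ hθ hne
    have k2 := key θ' hθ' hne'
    have n1 := hNI θ hθ hne
    have n2 := hNI θ' hθ' hne'
    rw [← ha] at k1 n1
    rw [← hb] at k2 n2
    have hK0 : (0 : ℝ) ≤ K.index := Nat.cast_nonneg _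
    nlinarith
  have h0 := lside_bessel K AL AN RL RN hDL hDN hAN hirr hreal τ₁ hτ₁ hext ζ₀ hζ₀ hdeg (a - b)
    hβ hβA hcross hnorm ζ hζ
  rw [Cfsg.Agent.Lib.Helper26.classInner_sub_left] at h0
  exact sub_eq_zero.mp h0

/-- The second Bessel application: generalized characters `f` of a subgroup `F` of `L`
vanishing at `1`, with `Ind f` of small norm and orthogonal to the `τ_N α`. -/
theorem lside_x1 (F : Subgroup L) [Fintype F] (K : Subgroup N) [K.Normal]
    (AL AN : Set G) (RL RN : G → Subgroup G)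
    (hDL : DadeHypothesis AL L RL) (hDN : DadeHypothesis AN N RN)
    (hAN : ∀ x : N, (x : G) ∈ AN ↔ x ∈ K ∧ x ≠ 1)
    (hirr : ∀ χ ∈ inducedIrrAbove K ⊥, IsIrrCharacter N χ)
    (hreal : ∀ χ ∈ inducedIrrAbove K ⊥, conjFun χ ≠ χ)
    (τ₁ : (N → ℂ) → (G → ℂ)) (hτ₁ : IsLinearIsometryOn (zspan (inducedIrrAbove K ⊥)) τ₁)
    (hext : ∀ α ∈ zspanOn (inducedIrrAbove K ⊥) ({1}ᶜ : Set N), τ₁ α = dadeIsometry AN N RN α)
    (ζ₀ : N → ℂ) (hζ₀ : ζ₀ ∈ inducedIrrAbove K ⊥) (hdeg : ζ₀ 1 = (K.index : ℂ))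
    (hFA : ∀ x : L, x ∈ F → x ≠ 1 → (x : G) ∈ AL)
    (f : F → ℂ) (hf : IsGeneralizedCharacter F f) (hf1 : f 1 = 0)
    (hcross : ∀ χ ∈ inducedIrrAbove K ⊥, ∀ ξ ∈ inducedIrrAbove K ⊥,
      classInner (dadeIsometry AN N RN (alphaFun χ ξ)) (dadeIsometry AL L RL (indFun F f)) = 0)
    (hnorm : (classInner (indFun F f) (indFun F f)).re * (K.index : ℝ) ≤ (Nat.card K : ℝ) - 2) :
    ∀ ζ ∈ inducedIrrAbove K ⊥, classInner (fun x : F => dadeRho AL L RL (τ₁ ζ) x) f = 0 := by
  intro ζ hζ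
  have hgen := isGeneralizedCharacter_indFun F hf
  have hvan := indFun_vanish_off hDL F hFA f hf1
  have hn := re_norm_add_conj_le (indFun F f)
  have hK0 : (0 : ℝ) ≤ K.index := Nat.cast_nonneg _
  have hnorm' : (classInner (indFun F f + conjFun (indFun F f))
      (indFun F f + conjFun (indFun F f))).re * (K.index : ℝ) < 4 * ((Nat.card K : ℝ) - 1) := by
    nlinarith
  have h0 := lside_bessel K AL AN RL RN hDL hDN hAN hirr hreal τ₁ hτ₁ hext ζ₀ hζ₀ hdeg _
    hgen hvan hcross hnorm' ζ hζ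
  have hτc : IsClassFunction G (τ₁ ζ) :=
    isClassFunction_of_gen (hτ₁.2.2.2 ζ (Submodule.subset_span hζ))
  have hρc := isClassFunction_dadeRho hDL hτc
  rw [Cfsg.Agent.Lib.Helper80.frobenius_reciprocity F f _ hρc] at h0
  rw [← Cfsg.Agent.Lib.Helper80.classInner_conj_symm, h0, map_zero]

end avgsec

end Cfsg.Agent.Lib.Helper4.PF12
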