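import Mathlib
import Cfsg.Agent.Lib.Helper4.PF12.LSideC
import Cfsg.Agent.Lib.Helper57.PF12.L1
import Cfsg.Agent.Lib.Helper57.PF12.L1Hom
import Cfsg.Agent.Lib.Helper3.PF12.N2
import Cfsg.Agent.S0161

/-!
# PF (12.x): the character core, relative to four packages (helper4)

`pf12_core_of`: the contradiction of Peterfalvi (12.x) for a non-Frobenius Type I maximal
subgroup `L` and a Frobenius witness `N`, assuming the instances `hNI` (norm of induced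
characters), `hX1I` (cross term), `hNC` (norm inequality) and `hAR` (arithmetic) of the four
packages proved elsewhere.
-/

set_option autoImplicit false

namespace Cfsg.Agent.Lib.Helper4.PF12

open Cfsg Cfsg.Agent.Lib.Helper80 Cfsg.Agent.Lib.Helper4
open scoped ComplexConjugate

universe u

section core

variable {G : Type u} [Group G] [Fintype G]

set_option maxHeartbeats 1600000 in
theorem pf12_core_of (L N : Subgroup G) [Fintype L] [Fintype N]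
    (H : Subgroup L) [hHn : H.Normal] [Fintype H] [Fintype (commutator H)]
    (K : Subgroup N) [hKn : K.Normal]
    (AL AN : Set G) (RL RN : G → Subgroup G)
    (hodd : Odd (Nat.card G)) (hDL : DadeHypothesis AL L RL) (hDN : DadeHypothesis AN N RN)
    (hAN : ∀ x : N, (x : G) ∈ AN ↔ x ∈ K ∧ x ≠ 1)
    (hirr : ∀ χ ∈ inducedIrrAbove K ⊥, IsIrrCharacter N χ)
    (hcoh : IsCoherent (inducedIrrAbove K ⊥) ({1}ᶜ : Set N) (dadeIsometry AN N RN))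
    (hKsolv : Group.IsSolvable K) (hK1 : K ≠ ⊥)
    (u : L) [Fintype ↥(H ⊔ Subgroup.zpowers u)]
    (p : ℕ) (hp : p.Prime) (hu : orderOf u = p) (hcop : Nat.Coprime p (Nat.card H))
    (huN : (u : G) ∈ N) (huK : (⟨(u : G), huN⟩ : N) ∈ K)
    (hxu : ∃ x : H, x ∉ commutator H ∧ (x : L) * u = u * x)
    (hFA : ∀ x : L, x ∈ H ⊔ Subgroup.zpowers u → x ≠ 1 → (x : G) ∈ AL)
    (hRL : ∀ x : L, x ∈ H ⊔ Subgroup.zpowers u → x ∉ H → RL (x : G) = ⊥)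
    (hRN : ∀ i : ℕ, 0 < i → i < p →
      RN ((u : G) ^ i) = (H.map L.subtype) ⊓ Subgroup.centralizer {(u : G) ^ i})
    (hD : ∀ g : G, ∀ a : L, a ∈ H → a ≠ 1 →
      (∃ r ∈ RL (a : G), ∃ x : G, x * g * x⁻¹ = (a : G) * r) →
      ∀ b : N, b ∈ K → b ≠ 1 → (∃ s ∈ RN (b : G), ∃ y : G, y * g * y⁻¹ = (b : G) * s) → False)
    (he3 : 3 ≤ K.index) (hep : K.index + 2 ≤ p) (hdvd : K.index ∣ p ^ 2 - 1)
    (hKcard : p ^ 2 ≤ Nat.card K)
    (hLcard : Nat.card L ≤ Nat.card H * Nat.card K) (hHD : p + 1 ≤ (commutator H).index)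
    (hNI : ∀ θ : H → ℂ, IsIrrCharacter H θ → θ ≠ (fun _ => 1) →
      (classInner (indFun H θ) (indFun H θ)).re * (K.index : ℝ) ≤ (Nat.card K : ℝ) - 2)
    (hX1I : ∀ (α : N → ℂ), IsClassFunction N α → (∀ x : N, (x : G) ∉ AN → α x = 0) →
      ∀ (θ₁ : H →* ℂˣ), θ₁ ≠ 1 → ∀ (φ φ' : ↥(H ⊔ Subgroup.zpowers u) →* ℂˣ),
      (∀ (h : L) (hh : h ∈ H), φ ⟨h, Subgroup.mem_sup_left hh⟩ = θ₁ ⟨h, hh⟩) →
      (∀ (h : L) (hh : h ∈ H), φ' ⟨h, Subgroup.mem_sup_left hh⟩ = θ₁ ⟨h, hh⟩) →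
      classInner (dadeIsometry AN N RN α) (dadeIsometry AL L RL
        (indFun (H ⊔ Subgroup.zpowers u)
          (fun x => ((φ x : ℂˣ) : ℂ) - ((φ' x : ℂˣ) : ℂ)))) = 0)
    (hNC : ∀ (ψ : G → ℂ), IsGeneralizedCharacter G ψ → classInner ψ ψ = 1 →
      ∀ (ζ : N → ℂ), IsIrrCharacter N ζ → (∀ x : N, x ∉ K → ζ x = 0) →
      ζ 1 = (K.index : ℂ) → K ≠ ⊤ → ∀ (γ : ℝ),
      (∀ k : N, k ∈ K → k ≠ 1 → cosetAvg RN ψ (k : G) = ζ k + (γ : ℂ)) → ∀ (c : ℂ),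
      (∀ x : H, x ∉ commutator H → (Nat.card (commutator H) : ℂ)⁻¹ *
        ∑ z : commutator H, dadeRho AL L RL ψ ((x * (z : H) : H) : L) = c) →
      (Nat.card L : ℝ)⁻¹ * (((Nat.card H : ℝ) - Nat.card (commutator H)) * ‖c‖ ^ 2) +
        (Nat.card N : ℝ)⁻¹ * ((Nat.card N : ℝ) - (K.index : ℝ) ^ 2 - 2 * γ * K.index +
          γ ^ 2 * ((Nat.card K : ℝ) - 1)) ≤ 1)
    (hAR : ∀ (e p cK cH cL cN cD : ℕ) (g m : ℤ), 3 ≤ e → e + 2 ≤ p → e ∣ p ^ 2 - 1 →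
      p ^ 2 ≤ cK → cN = e * cK → cL ≤ cH * cK → 0 < cL → (p + 1) * cD ≤ cH → 0 < cD →
      (cL : ℝ)⁻¹ * (((cH : ℝ) - cD) * ((e : ℝ) + g + p * m) ^ 2) +
        (cN : ℝ)⁻¹ * ((cN : ℝ) - (e : ℝ) ^ 2 - 2 * g * e + (g : ℝ) ^ 2 * ((cK : ℝ) - 1)) ≤ 1 →
      False) : False := by
  classical
  have := Fintype.ofFinite (IrrCharacter N)
  have := Fintype.ofFinite (IrrCharacter G)
  obtain ⟨-, τ₁, hτ₁, hext⟩ := hcoh
  -- the character ζ₀ of degree e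
  have hbotK : (⊥ : Subgroup N) < K := bot_lt_iff_ne_bot.mpr hK1
  obtain ⟨θ₀, hθ₀, hθ₀ne, hθ₀1, -⟩ :=
    Cfsg.Agent.Lib.Helper25.exists_linear_above K hKsolv ⊥ hbotK
  obtain ⟨ζ₀, hζ₀def⟩ : ∃ ζ₀ : N → ℂ, ζ₀ = indFun K θ₀ := ⟨_, rfl⟩
  have hζ₀ : ζ₀ ∈ inducedIrrAbove K ⊥ := by
    refine ⟨θ₀, hθ₀, hθ₀ne, ?_, hζ₀def⟩
    intro a ha
    have ha1 : a = 1 := by
      apply Subtype.ext
      exact (Subgroup.mem_bot.mp ha)
    rw [ha1]
  have hdeg : ζ₀ 1 = (K.index : ℂ) := by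
    rw [hζ₀def, indFun_one, hθ₀1, mul_one]
  have hζ₀irr := hirr ζ₀ hζ₀
  have hζ₀char := isCharacter_of_isIrrCharacter hζ₀irr
  have hKtop : K ≠ ⊤ := by
    intro h
    rw [h, Subgroup.index_top] at he3
    omega
  -- reality
  have hoddN : Odd (Nat.card N) := Odd.of_dvd_nat hodd (Subgroup.card_subgroup_dvd_card N)
  have hoddL : Odd (Nat.card L) := Odd.of_dvd_nat hodd (Subgroup.card_subgroup_dvd_card L)
  have hreal : ∀ χ ∈ inducedIrrAbove K ⊥, conjFun χ ≠ χ := by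
    intro χ hχ hconj
    have h1 := Cfsg.Agent.S0161.result hoddN ⟨χ, hirr χ hχ⟩ (by
      intro g
      have h2 := congrFun hconj g
      unfold conjFun at h2
      exact Complex.conj_eq_iff_im.mp h2)
    obtain ⟨x, hx⟩ : ∃ x : N, x ∉ K := by
      by_contra hcon
      push Not at hcon
      exact hKtop (Subgroup.eq_top_iff' K |>.mpr hcon)
    have h3 := induced_vanish K hχ hx
    have h4 := congrFun h1 x
    simp only at h4
    rw [h3] at h4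
    exact zero_ne_one h4
  -- the constant
  obtain ⟨c, hc⟩ := nside_const K AN RN hDN hAN hirr τ₁ hτ₁ hext
  obtain ⟨ψ, hψdef⟩ : ∃ ψ : G → ℂ, ψ = τ₁ ζ₀ := ⟨_, rfl⟩
  obtain ⟨γ, hγdef⟩ : ∃ γ : ℂ, γ = c * (K.index : ℂ) := ⟨_, rfl⟩
  have hγK : ∀ k : N, k ∈ K → k ≠ 1 → cosetAvg RN ψ (k : G) = ζ₀ k + γ := by
    intro k hk hk1
    rw [hψdef, hc ζ₀ hζ₀ k hk hk1, hdeg, hγdef]
  have hζ₀span : ζ₀ ∈ zspan (inducedIrrAbove K ⊥) := Submodule.subset_span hζ₀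
  have hψgen : IsGeneralizedCharacter G ψ := by
    rw [hψdef]; exact hτ₁.2.2.2 ζ₀ hζ₀span
  have hψc : IsClassFunction G ψ := isClassFunction_of_gen hψgen
  have hψ1 : classInner ψ ψ = 1 := by
    rw [hψdef, hτ₁.2.2.1 ζ₀ hζ₀span ζ₀ hζ₀span]
    exact Cfsg.Agent.Lib.Helper26.classInner_irr_self hζ₀irr
  obtain ⟨ρ, hρdef⟩ : ∃ ρ : L → ℂ, ρ = dadeRho AL L RL ψ := ⟨_, rfl⟩
  have hρc : IsClassFunction L ρ := by
    rw [hρdef]; exact isClassFunction_dadeRho hDL hψc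
  -- `u ∉ H`
  have huH : u ∉ H := by
    intro h
    have h1 : orderOf (⟨u, h⟩ : H) ∣ Nat.card H := orderOf_dvd_natCard _
    have h2 : orderOf (⟨u, h⟩ : H) = p := by
      rw [← hu]; exact Subgroup.orderOf_mk u h
    rw [h2] at h1
    exact hp.one_lt.ne' (Nat.Coprime.eq_one_of_dvd hcop h1)
  have hHA : ∀ x : L, x ∈ H → x ≠ 1 → (x : G) ∈ AL :=
    fun x hx hx1 => hFA x (Subgroup.mem_sup_left hx) hx1
  have hNO : ∀ θ : H → ℂ, IsIrrCharacter H θ → θ ≠ (fun _ => 1) →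
      classInner (indFun H θ) (indFun H (conjFun θ)) = 0 :=
    fun θ hθ hne => Cfsg.Agent.Lib.Helper57.PF12.indFun_conj_orth H hoddL θ hθ hne
  -- Step 1
  have hstep1 : ∀ θ θ' : H → ℂ, IsIrrCharacter H θ → IsIrrCharacter H θ' → θ 1 = 1 → θ' 1 = 1 →
      θ ≠ (fun _ => 1) → θ' ≠ (fun _ => 1) →
      classInner (indFun H θ) ρ = classInner (indFun H θ') ρ := by
    intro θ θ' hθ hθ' h1 h1' hne hne'
    have h := lside_avg H K AL AN RL RN hDL hDN hAN hirr hreal τ₁ hτ₁ hext ζ₀ hζ₀ hdeg hHA hD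
      hNI hNO θ θ' hθ hθ' h1 h1' hne hne' ζ₀ hζ₀
    rw [hρdef, hψdef]
    exact h
  -- the invariant linear character
  obtain ⟨x₀, hx₀, hx₀u⟩ := hxu
  have hup : u ^ p = 1 := by rw [← hu]; exact pow_orderOf_eq_one u
  obtain ⟨θ₁, hθ₁ne, hθ₁inv⟩ :=
    Cfsg.Agent.Lib.Helper57.PF12.exists_invariant_hom H u p hp hup hcop x₀ hx₀ hx₀u
  obtain ⟨θ₁f, hθ₁f⟩ : ∃ θ₁f : H → ℂ, θ₁f = fun h => ((θ₁ h : ℂˣ) : ℂ) := ⟨_, rfl⟩
  have hθ₁irr : IsIrrCharacter H θ₁f := by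
    rw [hθ₁f]; exact isIrrCharacter_of_hom θ₁
  have hθ₁1 : θ₁f 1 = 1 := by rw [hθ₁f]; simp
  have hθ₁ne' : θ₁f ≠ fun _ => 1 := by
    rw [hθ₁f]; exact Cfsg.Agent.Lib.Helper57.PF12.homFun_ne_one hθ₁ne
  obtain ⟨ρH, hρH⟩ : ∃ ρH : H → ℂ, ρH = fun h : H => ρ (h : L) := ⟨_, rfl⟩
  obtain ⟨mθ, hmθ⟩ : ∃ mθ : ℂ, mθ = classInner ρH θ₁f := ⟨_, rfl⟩
  have hm : ∀ θ : H → ℂ, IsIrrCharacter H θ → θ 1 = 1 → θ ≠ (fun _ => 1) →
      classInner ρH θ = mθ := by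
    intro θ hθ h1 hne
    have e1 := Cfsg.Agent.Lib.Helper80.frobenius_reciprocity H θ ρ hρc
    have e2 := Cfsg.Agent.Lib.Helper80.frobenius_reciprocity H θ₁f ρ hρc
    have e3 := hstep1 θ θ₁f hθ hθ₁irr h1 hθ₁1 hne hθ₁ne'
    rw [e1, e2, ← hρH] at e3
    rw [hmθ, ← Cfsg.Agent.Lib.Helper80.classInner_conj_symm θ ρH,
      ← Cfsg.Agent.Lib.Helper80.classInner_conj_symm θ₁f ρH, e3]
  obtain ⟨cbar, hcbar⟩ : ∃ cbar : ℂ, cbar = classInner ρH (fun _ => 1) - mθ := ⟨_, rfl⟩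
  have havg : ∀ x : H, x ∉ commutator H → (Nat.card (commutator H) : ℂ)⁻¹ *
      ∑ z : commutator H, ρH (x * z) = cbar := by
    intro x hx
    rw [hcbar]
    exact Cfsg.Agent.Lib.Helper57.PF12.avg_coset_commutator ρH mθ hm x hx
  -- the values `z i`
  obtain ⟨uN, huNdef⟩ : ∃ uN : N, uN = ⟨(u : G), huN⟩ := ⟨_, rfl⟩
  have huNK : uN ∈ K := by rw [huNdef]; exact huK
  have huNcoe : ∀ i : ℕ, ((uN ^ i : N) : G) = ((u ^ i : L) : G) := by
    intro i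
    rw [huNdef]
    simp
  have huNp : uN ^ p = 1 := by
    apply Subtype.ext
    rw [huNcoe p, hup]
    rfl
  obtain ⟨z, hz⟩ : ∃ z : ℕ → ℂ, z = fun i => ζ₀ (uN ^ i) := ⟨_, rfl⟩
  have hzint : ∀ w : ℂ, w ^ p = 1 →
      ∃ m : ℤ, ∑ i ∈ Finset.range p, z i * w ^ i = (p : ℂ) * m := by
    intro w hw
    rw [hz]
    exact cyclic_sum_int ζ₀ hζ₀char uN p hp.pos huNp w hw
  have hz0 : z 0 = (K.index : ℂ) := by rw [hz]; simp only [pow_zero]; exact hdeg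
  -- X2
  have hX2 : ∀ i : ℕ, 0 < i → i < p →
      ∑ h : H, ρ (u ^ i * h) = (Nat.card H : ℂ) * (z i + γ) := by
    intro i hi0 hip
    have hne1 : u ^ i ≠ 1 := pow_ne_one_of_lt_orderOf hi0.ne' (by rw [hu]; exact hip)
    have hcopi : (orderOf u).Coprime i := by
      rw [hu]
      exact (Nat.Prime.coprime_iff_not_dvd hp).mpr (fun hd => by
        have := Nat.le_of_dvd hi0 hd
        omega)
    have hord : orderOf (u ^ i) = p := by
      rw [Nat.Coprime.orderOf_pow hcopi, hu]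
    have hcop' : (orderOf (u ^ i)).Coprime (Nat.card H) := by rw [hord]; exact hcop
    have hmem : ∀ h : H, (u ^ i * h : L) ∈ H ⊔ Subgroup.zpowers u := fun h =>
      Subgroup.mul_mem _ (Subgroup.mem_sup_right (Subgroup.pow_mem _ (Subgroup.mem_zpowers u) i))
        (Subgroup.mem_sup_left h.2)
    have hnotH : ∀ h : H, (u ^ i * h : L) ∉ H := by
      intro h hh
      have h1 : u ^ i ∈ H := by
        have h2 := H.mul_mem hh (H.inv_mem h.2)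
        simpa using h2
      have h3 := Cfsg.Agent.Lib.Helper3.PF12.zpow_mem_imp_dvd H u hp hu huH (i : ℤ)
        (by simpa using h1)
      have h4 : p ∣ i := by exact_mod_cast h3
      have := Nat.le_of_dvd hi0 h4
      omega
    have hne1' : ∀ h : H, (u ^ i * h : L) ≠ 1 := fun h h1 =>
      hnotH h (by rw [h1]; exact H.one_mem)
    have htA : ∀ h : H, ((u ^ i * h : L) : G) ∈ AL := fun h => hFA _ (hmem h) (hne1' h)
    have htR : ∀ h : H, RL ((u ^ i * h : L) : G) = ⊥ := fun h => hRL _ (hmem h) (hnotH h)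
    have hRN' : RN ((u ^ i : L) : G) =
        H.map L.subtype ⊓ Subgroup.centralizer {((u ^ i : L) : G)} := by
      have h5 := hRN i hi0 hip
      simpa using h5
    rw [hρdef, sum_coset_rho H AL RL RN ψ hψc (u ^ i) hcop' htA htR hRN']
    have hk : uN ^ i ∈ K := K.pow_mem huNK i
    have hk1 : uN ^ i ≠ 1 := by
      intro h
      apply hne1
      apply Subtype.ext
      rw [← huNcoe i, h]
      rfl
    have h6 := hγK (uN ^ i) hk hk1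
    rw [huNcoe i] at h6
    rw [h6, hz]
  -- X1
  have hX1 : ∀ φ φ' : ↥(H ⊔ Subgroup.zpowers u) →* ℂˣ,
      (∀ (h : L) (hh : h ∈ H), φ ⟨h, Subgroup.mem_sup_left hh⟩ = θ₁ ⟨h, hh⟩) →
      (∀ (h : L) (hh : h ∈ H), φ' ⟨h, Subgroup.mem_sup_left hh⟩ = θ₁ ⟨h, hh⟩) →
      classInner (fun x : ↥(H ⊔ Subgroup.zpowers u) => ρ x) (fun x => ((φ x : ℂˣ) : ℂ)) =
        classInner (fun x : ↥(H ⊔ Subgroup.zpowers u) => ρ x) (fun x => ((φ' x : ℂˣ) : ℂ)) := by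
    intro φ φ' hφ hφ'
    have hf : IsGeneralizedCharacter ↥(H ⊔ Subgroup.zpowers u)
        (fun x => ((φ x : ℂˣ) : ℂ) - ((φ' x : ℂˣ) : ℂ)) :=
      ⟨fun x => ((φ x : ℂˣ) : ℂ), fun x => ((φ' x : ℂˣ) : ℂ),
        isCharacter_of_isIrrCharacter (isIrrCharacter_of_hom φ),
        isCharacter_of_isIrrCharacter (isIrrCharacter_of_hom φ'), rfl⟩
    have hf1 : (fun x : ↥(H ⊔ Subgroup.zpowers u) => ((φ x : ℂˣ) : ℂ) - ((φ' x : ℂˣ) : ℂ)) 1
        = 0 := by simp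
    have hcross : ∀ χ ∈ inducedIrrAbove K ⊥, ∀ ξ ∈ inducedIrrAbove K ⊥,
        classInner (dadeIsometry AN N RN (alphaFun χ ξ)) (dadeIsometry AL L RL
          (indFun (H ⊔ Subgroup.zpowers u)
            (fun x => ((φ x : ℂˣ) : ℂ) - ((φ' x : ℂˣ) : ℂ)))) = 0 := by
      intro χ hχ ξ hξ
      refine hX1I (alphaFun χ ξ) (isClassFunction_alphaFun
        (isCharacter_of_isIrrCharacter (hirr χ hχ))
        (isCharacter_of_isIrrCharacter (hirr ξ hξ))) ?_ θ₁ hθ₁ne φ φ' hφ hφ'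
      intro x hx
      by_cases hxK : x ∈ K
      · have hx1 : x = 1 := by
          by_contra h
          exact hx ((hAN x).mpr ⟨hxK, h⟩)
        rw [hx1, alphaFun_one]
      · rw [alphaFun_apply, induced_vanish K hχ hxK, induced_vanish K hξ hxK]
        ring
    have hnorm : (classInner (indFun (H ⊔ Subgroup.zpowers u)
          (fun x => ((φ x : ℂˣ) : ℂ) - ((φ' x : ℂˣ) : ℂ)))
        (indFun (H ⊔ Subgroup.zpowers u)
          (fun x => ((φ x : ℂˣ) : ℂ) - ((φ' x : ℂˣ) : ℂ)))).re * (K.index : ℝ)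
        ≤ (Nat.card K : ℝ) - 2 := by
      have h1 := Cfsg.Agent.Lib.Helper3.PF12.norm_ind_sub_le H u hp hu huH θ₁ hθ₁inv φ φ' hφ hφ'
      have h2 := hNI θ₁f hθ₁irr hθ₁ne'
      rw [hθ₁f] at h2
      have hK0 : (0 : ℝ) ≤ K.index := Nat.cast_nonneg _
      nlinarith
    have h0 := lside_x1 (H ⊔ Subgroup.zpowers u) K AL AN RL RN hDL hDN hAN hirr hreal τ₁ hτ₁ hext
      ζ₀ hζ₀ hdeg hFA _ hf hf1 hcross hnorm ζ₀ hζ₀
    rw [← hψdef, ← hρdef, Cfsg.Agent.Lib.Helper3.PF12.classInner_sub_right] at h0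
    exact sub_eq_zero.mp h0
  -- X3
  have hX3 : ∀ φ ν : ↥(H ⊔ Subgroup.zpowers u) →* ℂˣ,
      (∀ (h : L) (hh : h ∈ H), φ ⟨h, Subgroup.mem_sup_left hh⟩ = θ₁ ⟨h, hh⟩) →
      (∀ (h : L) (hh : h ∈ H), ν ⟨h, Subgroup.mem_sup_left hh⟩ = 1) →
      ∃ m : ℤ, classInner (fun x : ↥(H ⊔ Subgroup.zpowers u) => ρ x)
        (fun x => ((φ x : ℂˣ) : ℂ) - ((ν x : ℂˣ) : ℂ)) = m := by
    intro φ ν _ _
    rw [hρdef]
    exact lside_int hDL (H ⊔ Subgroup.zpowers u) hFA _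
      ⟨fun x => ((φ x : ℂˣ) : ℂ), fun x => ((ν x : ℂˣ) : ℂ),
        isCharacter_of_isIrrCharacter (isIrrCharacter_of_hom φ),
        isCharacter_of_isIrrCharacter (isIrrCharacter_of_hom ν), rfl⟩ (by simp) ψ hψgen
  -- the congruence
  obtain ⟨⟨g, hg⟩, m, hm'⟩ := Cfsg.Agent.Lib.Helper3.PF12.congruence H u hp hu huH ρ θ₁ hθ₁inv z γ
    hX1 hX3 hX2 hzint
  have hcb : cbar = (((K.index : ℝ) + g + p * m : ℝ) : ℂ) := by
    rw [hcbar, hmθ, hρH, hθ₁f, hm', hz0, hg]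
    push_cast
    ring
  have hnormc : ‖cbar‖ ^ 2 = ((K.index : ℝ) + g + p * m) ^ 2 := by
    rw [hcb, Complex.norm_real, Real.norm_eq_abs, sq_abs]
  -- the norm inequality
  have hγreal : γ = ((g : ℝ) : ℂ) := by rw [hg]; push_cast; rfl
  have havg' : ∀ x : H, x ∉ commutator H → (Nat.card (commutator H) : ℂ)⁻¹ *
      ∑ z : commutator H, dadeRho AL L RL ψ ((x * (z : H) : H) : L) = cbar := by
    intro x hx
    have h := havg x hx
    rw [hρH, hρdef] at h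
    exact h
  have hNC' := hNC ψ hψgen hψ1 ζ₀ hζ₀irr (fun x hx => induced_vanish K hζ₀ hx) hdeg hKtop (g : ℝ)
    (by intro k hk hk1; rw [hγK k hk hk1, hγreal]) cbar havg'
  rw [hnormc] at hNC'
  have hNcard : Nat.card N = K.index * Nat.card K := (Subgroup.index_mul_card K).symm
  have hHD' : (p + 1) * Nat.card (commutator H) ≤ Nat.card H := by
    rw [← Subgroup.index_mul_card (commutator H)]
    exact Nat.mul_le_mul_right _ hHD
  exact hAR K.index p (Nat.card K) (Nat.card H) (Nat.card L) (Nat.card N)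
    (Nat.card (commutator H)) g m he3 hep hdvd hKcard hNcard hLcard Nat.card_pos hHD'
    Nat.card_pos (by exact_mod_cast hNC')

end core

end Cfsg.Agent.Lib.Helper4.PF12
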