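import Mathlib
import Cfsg.Agent.Lib.Helper4.PF12.CoreA
import Cfsg.Agent.Lib.Helper4.PF12.ArithEnd
import Cfsg.Agent.Lib.Helper62.PF12.NormInd
import Cfsg.Agent.Lib.Helper57.PF12.X1I
import Cfsg.Agent.Lib.Helper3.PF12.NormCore

/-!
# PF (12.x): the character core (helper4, with helper3, helper57, helper62, helper95)

`pf12_core`: a non-Frobenius Type I maximal subgroup `L` (with `H = L_F`) having a singular
element `u` of prime order `p` in the kernel `K` of a Frobenius witness `N` cannot exist.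
-/

set_option autoImplicit false

namespace Cfsg.Agent.Lib.Helper4.PF12

open Cfsg Cfsg.Agent.Lib.Helper80 Cfsg.Agent.Lib.Helper4
open scoped ComplexConjugate

universe u

theorem pf12_core {G : Type u} [Group G] [Fintype G] (L N : Subgroup G) [Fintype L] [Fintype N]
    (H : Subgroup L) [hHn : H.Normal] (K : Subgroup N) [hKn : K.Normal]
    (AL AN : Set G) (RL RN : G → Subgroup G)
    (hodd : Odd (Nat.card G)) (hDL : DadeHypothesis AL L RL) (hDN : DadeHypothesis AN N RN)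
    (hAN : ∀ x : N, (x : G) ∈ AN ↔ x ∈ K ∧ x ≠ 1)
    (hirr : ∀ χ ∈ inducedIrrAbove K ⊥, IsIrrCharacter N χ)
    (hcoh : IsCoherent (inducedIrrAbove K ⊥) ({1}ᶜ : Set N) (dadeIsometry AN N RN))
    (hKsolv : Group.IsSolvable K) (hK1 : K ≠ ⊥) (hHall : Nat.Coprime (Nat.card H) H.index)
    (u : L) (p : ℕ) (hp : p.Prime) (hu : orderOf u = p) (hcop : Nat.Coprime p (Nat.card H))
    (huN : (u : G) ∈ N) (huK : (⟨(u : G), huN⟩ : N) ∈ K)
    (hxu : ∃ x : H, x ∉ commutator H ∧ (x : L) * u = u * x)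
    (hFA : ∀ x : L, x ∈ H ⊔ Subgroup.zpowers u → x ≠ 1 → (x : G) ∈ AL)
    (hRL : ∀ x : L, x ∈ H ⊔ Subgroup.zpowers u → x ∉ H → RL (x : G) = ⊥)
    (hRN : ∀ i : ℕ, 0 < i → i < p →
      RN ((u : G) ^ i) = (H.map L.subtype) ⊓ Subgroup.centralizer {(u : G) ^ i})
    (hD : ∀ g : G, ∀ a : L, a ∈ H → a ≠ 1 →
      (∃ r ∈ RL (a : G), ∃ x : G, x * g * x⁻¹ = (a : G) * r) →
      ∀ b : N, b ∈ K → b ≠ 1 → (∃ s ∈ RN (b : G), ∃ y : G, y * g * y⁻¹ = (b : G) * s) → False)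
    (hST : ∀ T : Subgroup L, H ≤ T → (∀ x ∈ T, x ∉ H → ∃ h ∈ H, h ≠ 1 ∧ x * h = h * x) →
      Nat.card T * K.index + 2 * Nat.card H ≤ Nat.card K * Nat.card H)
    (he3 : 3 ≤ K.index) (hep : K.index + 2 ≤ p) (hdvd : K.index ∣ p ^ 2 - 1)
    (hKcard : p ^ 2 ≤ Nat.card K)
    (hLcard : Nat.card L ≤ Nat.card H * Nat.card K) (hHD : p + 1 ≤ (commutator H).index) :
    False := by
  classical
  haveI : Fintype H := Fintype.ofFinite H
  haveI : Fintype (commutator H) := Fintype.ofFinite _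
  haveI : Fintype ↥(H ⊔ Subgroup.zpowers u) := Fintype.ofFinite _
  have hHA : ∀ x : L, x ∈ H → x ≠ 1 → (x : G) ∈ AL :=
    fun x hx hx1 => hFA x (Subgroup.mem_sup_left hx) hx1
  exact pf12_core_of L N H K AL AN RL RN hodd hDL hDN hAN hirr hcoh hKsolv hK1 u p hp hu hcop
    huN huK hxu hFA hRL hRN hD he3 hep hdvd hKcard hLcard hHD
    (fun θ hθ hne =>
      Cfsg.Agent.Lib.Helper62.PF12.norm_ind_bound H hHall K.index (Nat.card K) hST θ hθ hne)
    (fun α hα _ θ₁ hθ₁ φ φ' hφ hφ' =>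
      Cfsg.Agent.Lib.Helper57.PF12.cross_term L N H K AL AN RL RN hDL hDN hAN u p hp hu hcop
        huN huK hFA hRL hRN α hα θ₁ hθ₁ φ φ' hφ hφ')
    (fun ψ hψ hψ1 ζ hζ hvan hdeg hK γ hγ c havg =>
      Cfsg.Agent.Lib.Helper3.PF12.norm_core L N H K AL AN RL RN hDL hDN hAN hHA hD ψ hψ hψ1 ζ hζ
        hvan hdeg hK γ hγ c havg)
    pf12_arith

end Cfsg.Agent.Lib.Helper4.PF12
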