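import Mathlib
import Cfsg.Agent.Lib.Helper4.PF12.DadeInd
import Cfsg.Agent.Lib.Helper4.Sib6
import Cfsg.Agent.Lib.Helper25.FrobSys
import Cfsg.Agent.S1500
import Cfsg.Agent.S1501
import Cfsg.Agent.S1514
import Cfsg.Agent.S1521
import Cfsg.Agent.S1524
import Cfsg.Agent.S0040

/-!
# Peterfalvi (12.3): coherence for a Frobenius group with respect to a Dade isometry (helper4)

`frob_dade_coherent`: `L ≤ G` of odd order, `F` a nilpotent normal subgroup of `L` with a
complement `U` acting without fixed points (so `L` is a Frobenius group with kernel `F`),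
`A` the set of non-identity elements of `F`, and `R` any choice of supports making `(A, L, R)`
satisfy the Dade hypothesis (with `R a = ⊥` whenever `C_G(a) ≤ L`).  If `F` is a TI-subset of
`G` with normaliser `L`, or `F` is abelian, or the exponent of `L / F` divides `p - 1` for
every prime divisor `p` of `|F|`, then the characters induced from the non-principal
irreducible characters of `F` are irreducible and form a coherent set for the Dade isometry.
-/

set_option autoImplicit false

namespace Cfsg.Agent.Lib.Helper4.PF12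

open Cfsg Cfsg.Agent.Lib.Helper25 Cfsg.Agent.Lib.Helper4.Sib

universe u

section main

variable {G : Type u} [Group G] [Fintype G]

theorem frob_dade_coherent (L : Subgroup G) [Fintype L] (F U : Subgroup L) [hFn : F.Normal]
    (hodd : Odd (Nat.card L)) (hF1 : F ≠ ⊥) (hU1 : U ≠ ⊥)
    (hc : Subgroup.IsComplement' F U) (hnil : Group.IsNilpotent F)
    (hfpf : ∀ u ∈ U, u ≠ 1 → ∀ k ∈ F, u * k = k * u → k = 1)
    (A : Set G) (hA : A = {a | a ∈ F.map L.subtype ∧ a ≠ 1})
    (R : G → Subgroup G) (hD : DadeHypothesis A L R)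
    (hR : ∀ a : G, Subgroup.centralizer ({a} : Set G) ≤ L → R a = ⊥)
    (hN : Subgroup.normalizer ((F.map L.subtype : Subgroup G) : Set G) = L)
    (hcases : IsTISubset ((F.map L.subtype : Subgroup G) : Set G) ∨ IsMulCommutative F ∨
      (∀ p : ℕ, p.Prime → p ∣ Nat.card F → Monoid.exponent (L ⧸ F) ∣ p - 1)) :
    (∀ χ ∈ inducedIrrAbove F ⊥, IsIrrCharacter L χ) ∧
      IsCoherent (inducedIrrAbove F ⊥) {1}ᶜ (dadeIsometry A L R) := by
  classical
  obtain ⟨H, hHdef⟩ : ∃ H : Subgroup G, H = F.map L.subtype := ⟨_, rfl⟩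
  obtain ⟨W₁, hWdef⟩ : ∃ W₁ : Subgroup G, W₁ = U.map L.subtype := ⟨_, rfl⟩
  have hK : H.subgroupOf L = F := by
    rw [hHdef]
    exact Subgroup.comap_map_eq_self_of_injective (Subgroup.subtype_injective L) F
  have hKU : W₁.subgroupOf L = U := by
    rw [hWdef]
    exact Subgroup.comap_map_eq_self_of_injective (Subgroup.subtype_injective L) U
  rw [← hHdef] at hA hN hcases
  have hHL : H ≤ L := by rw [hHdef]; exact Subgroup.map_subtype_le F
  have hW₁L : W₁ ≤ L := by rw [hWdef]; exact Subgroup.map_subtype_le U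
  clear hHdef hWdef
  subst hK
  subst hKU
  have hmemK : ∀ x : L, x ∈ H.subgroupOf L ↔ (x : G) ∈ H := fun x => Subgroup.mem_subgroupOf
  have hmemU : ∀ x : L, x ∈ W₁.subgroupOf L ↔ (x : G) ∈ W₁ := fun x => Subgroup.mem_subgroupOf
  have hH1 : H ≠ ⊥ := by
    intro h
    apply hF1
    rw [h]
    exact Subgroup.bot_subgroupOf L
  have hW1 : W₁ ≠ ⊥ := by
    intro h
    apply hU1
    rw [h]
    exact Subgroup.bot_subgroupOf L
  have hnilH : Group.IsNilpotent H :=
    (Group.isNilpotent_congr (Subgroup.subgroupOfEquivOfLe hHL)).mp hnil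
  have hHn : ∀ x ∈ L, ∀ h ∈ H, x * h * x⁻¹ ∈ H := by
    intro x hx h hh
    have h1 := hFn.conj_mem ⟨h, hHL hh⟩ ((hmemK _).mpr hh) ⟨x, hx⟩
    exact (hmemK _).mp h1
  have hinf : H ⊓ W₁ = ⊥ := by
    rw [eq_bot_iff]
    intro x hx
    have h1 : (⟨x, hHL hx.1⟩ : L) ∈ H.subgroupOf L ⊓ W₁.subgroupOf L :=
      ⟨(hmemK _).mpr hx.1, (hmemU _).mpr hx.2⟩
    rw [hc.disjoint.eq_bot, Subgroup.mem_bot] at h1
    rw [Subgroup.mem_bot]
    exact congrArg Subtype.val h1
  have hsup : H ⊔ W₁ = L := by
    have h1 := hc.sup_eq_top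
    rw [← Subgroup.subgroupOf_sup hHL hW₁L] at h1
    apply le_antisymm (sup_le hHL hW₁L)
    intro x hx
    have h2 : (⟨x, hx⟩ : L) ∈ (H ⊔ W₁).subgroupOf L := by rw [h1]; exact Subgroup.mem_top _
    exact Subgroup.mem_subgroupOf.mp h2
  have hfpfG : ∀ w ∈ W₁, w ≠ 1 → ∀ h ∈ H, w * h = h * w → h = 1 := by
    intro w hw hw1 h hh hwh
    have h1 := hfpf ⟨w, hW₁L hw⟩ ((hmemU _).mpr hw) (fun h2 => hw1 (congrArg Subtype.val h2))
      ⟨h, hHL hh⟩ ((hmemK _).mpr hh) (Subtype.ext hwh)
    exact congrArg Subtype.val h1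
  have hirr : ∀ χ ∈ inducedIrrAbove (H.subgroupOf L) ⊥, IsIrrCharacter L χ :=
    frob_above_irr H L W₁ hHL hW₁L hinf hsup hfpfG ⊥
  refine ⟨hirr, ?_⟩
  -- the coherence system for the Dade isometry
  have hgen : ∀ α ∈ zspanOn (inducedIrrAbove (H.subgroupOf L) ⊥) {1}ᶜ,
      IsGeneralizedCharacter L α := fun α hα =>
    zspan_isGen (above_isCharacter (H.subgroupOf L) ⊥) hα.1
  have hvanA : ∀ α ∈ zspanOn (inducedIrrAbove (H.subgroupOf L) ⊥) {1}ᶜ,
      ∀ x : L, (x : G) ∉ A → α x = 0 := by
    intro α hα x hx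
    by_cases hx1 : x = 1
    · rw [hx1]
      exact hα.2 1 (by simp)
    · apply zspan_above_vanish (H.subgroupOf L) ⊥ hα.1
      intro hxK
      apply hx
      rw [hA]
      exact ⟨(hmemK _).mp hxK, fun h => hx1 (Subtype.ext h)⟩
  have hiso : IsLinearIsometryOn (zspanOn (inducedIrrAbove (H.subgroupOf L) ⊥) {1}ᶜ)
      (dadeIsometry A L R) := by
    refine ⟨fun α _ β _ => dadeIsometry_add α β, fun α _ n => dadeIsometry_zsmul n α,
      fun α hα β hβ => ?_, fun α hα => ?_⟩
    · exact (Cfsg.Agent.S1500.result A L R hD α (isClassFunction_of_isGen (hgen α hα))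
        (hvanA α hα)).1 β (isClassFunction_of_isGen (hgen β hβ)) (hvanA β hβ)
    · exact Cfsg.Agent.S1501.result A L R hD α (hgen α hα) (hvanA α hα)
  have hone : ∀ α ∈ zspanOn (inducedIrrAbove (H.subgroupOf L) ⊥) {1}ᶜ,
      dadeIsometry A L R α 1 = 0 := fun α _ =>
    Cfsg.Agent.Lib.Helper3.DadeConj.dadeIsometry_one_eq_zero hD α
  have hne : (inducedIrrAbove (H.subgroupOf L) ⊥).Nonempty := by
    haveI : Nontrivial (H.subgroupOf L) := (Subgroup.nontrivial_iff_ne_bot _).mpr hF1
    obtain ⟨θ, hθ, hθ1⟩ := exists_irr_ne_one (K := H.subgroupOf L)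
    exact ⟨Cfsg.indFun (H.subgroupOf L) θ, θ, hθ, hθ1, fun a ha => by
      rw [Subgroup.mem_bot] at ha
      have : a = 1 := Subtype.ext ha
      rw [this], rfl⟩
  obtain ⟨R', hsys⟩ := Cfsg.Agent.S1514.result _ hne hirr
    (fun χ hχ => ⟨conj_mem_above (H.subgroupOf L) ⊥ hχ,
      frob_conj_ne H L W₁ hodd hHL hW₁L hW1 hinf hsup hfpfG ⊥ χ hχ⟩) _ hiso hone
  by_cases hTI : IsTISubset (H : Set G)
  · -- Sibley's theorem (S1524) and Dade = Ind
    obtain ⟨hex, τ₁, hτ₁, hagree⟩ :=
      Cfsg.Agent.S1524.result H L W₁ hodd hHL hW₁L hH1 hW1 hnilH hHn hinf hsup hfpfG hTI hN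
    refine ⟨hex, τ₁, hτ₁, fun α hα => ?_⟩
    rw [hagree α hα]
    symm
    have hTI' : ∀ g : G, g ∉ L → ∀ t ∈ (H : Set G), g * t * g⁻¹ ∈ (H : Set G) → t = 1 := by
      intro g hg
      rw [← hN] at hg
      exact hTI g hg
    refine dade_eq_ind hD ?_ (H : Set G) ?_ hN hTI' α (isClassFunction_of_isGen (hgen α hα))
      (hvanA α hα)
    · intro a ha
      rw [hA] at ha
      apply hR
      intro g hg
      by_contra hgL
      have h1 : g * a = a * g := (Subgroup.mem_centralizer_iff.mp hg a rfl).symm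
      have h2 : g * a * g⁻¹ = a := by rw [h1]; group
      exact ha.2 (hTI' g hgL a ha.1 (by rw [h2]; exact ha.1))
    · intro a ha
      rw [hA] at ha
      exact ha.1
  · -- (6.5) = S1521
    obtain ⟨hcent, hKnil, hK₁lt, hKL⟩ :=
      frob_setup H L W₁ hHL hW₁L hH1 hW1 hnilH hinf hsup hfpfG
    have := hKnil
    have hsolv : Group.IsSolvable (H.subgroupOf L) := inferInstance
    have hH₁K : ⁅H.subgroupOf L, H.subgroupOf L⁆ ⊔ ⊥ < H.subgroupOf L := by
      rw [sup_bot_eq]; exact hK₁lt
    have hfrobq := frob_quot (H.subgroupOf L) hcent (⁅H.subgroupOf L, H.subgroupOf L⁆ ⊔ ⊥)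
      hH₁K.le
    have hnilq : Group.IsNilpotent
        (↥(H.subgroupOf L) ⧸ (⊥ : Subgroup L).subgroupOf (H.subgroupOf L)) := inferInstance
    refine Cfsg.Agent.S1521.result (H.subgroupOf L) hsolv _ R' hsys hodd ⊥ bot_le hnilq
      (⁅H.subgroupOf L, H.subgroupOf L⁆ ⊔ ⊥) rfl hH₁K hKL hfrobq ?_
    by_cases hpp : ∃ p m : ℕ, p.Prime ∧ Nat.card (H.subgroupOf L) = p ^ m
    · obtain ⟨p, m, hp, hcard⟩ := hpp
      by_cases hab : ⁅H.subgroupOf L, H.subgroupOf L⁆ = ⊥
      · exact Or.inr (Or.inr (Or.inr (Or.inl (by rw [hab]))))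
      · rcases hcases with h | h | h
        · exact absurd h hTI
        · exfalso
          apply hab
          rw [eq_bot_iff]
          apply Subgroup.commutator_le.mpr
          intro a ha b hb
          rw [Subgroup.mem_bot, commutatorElement_eq_one_iff_commute]
          have h1 := h.is_comm.comm ⟨a, ha⟩ ⟨b, hb⟩
          exact congrArg Subtype.val h1
        · refine Or.inr (Or.inr (Or.inr (Or.inr ⟨p, m, hp, ?_, ?_⟩)))
          · rw [Subgroup.relIndex_bot_left]; exact hcard
          · have hm : m ≠ 0 := by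
              intro hm
              rw [hm, pow_zero] at hcard
              exact hF1 ((Subgroup.card_eq_one).mp hcard)
            have hpd : p ∣ Nat.card (H.subgroupOf L) := by
              rw [hcard]; exact dvd_pow_self p hm
            have h1 := h p hp hpd
            -- the complement has cyclic Sylow subgroups
            haveI : IsZGroup (W₁.subgroupOf L) := by
              refine ⟨fun q hq P => ?_⟩
              haveI : Fact q.Prime := ⟨hq⟩
              have hfpf' : ∀ u ∈ W₁.subgroupOf L, u ≠ 1 →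
                  H.subgroupOf L ⊓ Subgroup.centralizer {u} = ⊥ := by
                intro u hu hu1
                rw [eq_bot_iff]
                intro k hk
                rw [Subgroup.mem_bot]
                exact hfpf u hu hu1 k hk.1 (Subgroup.mem_centralizer_iff.mp hk.2 u rfl)
              rcases Cfsg.Agent.S0040.result (H.subgroupOf L) (W₁.subgroupOf L) hc hF1 hfpf' q P
                with h2 | ⟨n, ⟨e⟩⟩
              · exact h2
              · exfalso
                have h3 : Nat.card (P : Subgroup (W₁.subgroupOf L)) = 4 * 2 ^ n := by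
                  rw [Nat.card_congr e.toEquiv, Nat.card_eq_fintype_card, QuaternionGroup.card]
                have h4 : 2 ∣ Nat.card L := by
                  have h5 : Nat.card (P : Subgroup (W₁.subgroupOf L)) ∣ Nat.card L :=
                    (Subgroup.card_subgroup_dvd_card _).trans (Subgroup.card_subgroup_dvd_card _)
                  rw [h3] at h5
                  exact (Dvd.intro (2 * 2 ^ n) (by ring)).trans h5
                exact (Nat.not_even_iff_odd.mpr hodd) (even_iff_two_dvd.mpr h4)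
            have hsurj : Function.Surjective
                ((QuotientGroup.mk' (H.subgroupOf L)).comp (W₁.subgroupOf L).subtype) := by
              intro y
              obtain ⟨x, rfl⟩ := QuotientGroup.mk'_surjective (H.subgroupOf L) y
              have hx : x ∈ H.subgroupOf L ⊔ W₁.subgroupOf L := by
                rw [hc.sup_eq_top]; exact Subgroup.mem_top x
              have hx' : x ∈ ((H.subgroupOf L ⊔ W₁.subgroupOf L : Subgroup L) : Set L) := hx
              rw [Subgroup.normal_mul] at hx'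
              obtain ⟨k, hk, w, hw, rfl⟩ := Set.mem_mul.mp hx'
              refine ⟨⟨w, hw⟩, ?_⟩
              simp only [MonoidHom.comp_apply, Subgroup.coe_subtype, QuotientGroup.mk'_apply]
              symm
              rw [QuotientGroup.eq]
              have : (k * w)⁻¹ * w = w⁻¹ * k⁻¹ * w := by group
              rw [this]
              have h6 := hFn.conj_mem k⁻¹ (Subgroup.inv_mem _ hk) w⁻¹
              simpa using h6
            haveI : IsZGroup (L ⧸ H.subgroupOf L) := IsZGroup.of_surjective hsurj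
            rw [IsZGroup.exponent_eq_card, ← Subgroup.index_eq_card] at h1
            exact h1
    · refine Or.inr (Or.inr (Or.inl ?_))
      rw [Subgroup.relIndex_bot_left]
      exact hpp

end main

end Cfsg.Agent.Lib.Helper4.PF12
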